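import Mathlib
import Cfsg.Prelude.Def_FusionSystem
import Cfsg.Agent.Lib.Helper84.Model3
import Cfsg.Agent.Lib.Helper84.PCoreBasic
import Cfsg.Agent.Lib.Helper85.ConsNormal
import Cfsg.Agent.Lib.Helper85.GroupFusion
import Cfsg.Agent.Lib.Helper85.GroupNormalSys

set_option autoImplicit false

/-!
# Constrained fusion systems of groups: subnormal subgroups and central quotients

Constrainedness of a fusion system only depends on a realization (two systems realized by the same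
group on the same Sylow subgroup are constrained together); subnormal subgroups of a group with
constrained fusion system have constrained fusion system; so do quotients by central subgroups.
-/

namespace Cfsg.Agent.Lib.Helper84
namespace ConsGroup

open Cfsg Cfsg.FusionSystem
open Cfsg.Agent.Lib.Helper85 (IsSylIn)

universe u v w

/-- the fusion system of a group on a subgroup is realized by the inclusion. -/
theorem group_isRealizedBy {Γ : Type u} [Group Γ] (S' : Subgroup Γ) :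
    (groupFusionSystem S').IsRealizedBy S'.subtype := by
  refine ⟨S'.subtype_injective, fun P hP φ hφ => ?_⟩
  constructor
  · rintro ⟨-, -, g, hg⟩
    exact ⟨g, fun x => hg x⟩
  · rintro ⟨g, hg⟩
    exact ⟨hP, hφ, g, fun x => hg x⟩

/-- the fusion system of a subgroup `H` on `T ≤ H` is realized by the inclusion of `T` in `H`. -/
theorem rel_isRealizedBy {G : Type u} [Group G] (H T : Subgroup G) (hTH : T ≤ H) :
    (fusionSystemOfSubgroup H T hTH).IsRealizedBy (Subgroup.inclusion hTH) := by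
  refine ⟨Subgroup.inclusion_injective hTH, fun P hP φ hφ => ?_⟩
  constructor
  · rintro ⟨-, -, g, hgH, hg⟩
    exact ⟨⟨g, hgH⟩, fun x => Subtype.ext (hg x)⟩
  · rintro ⟨g, hg⟩
    exact ⟨hP, hφ, g, g.2, fun x => congrArg Subtype.val (hg x)⟩

theorem exists_hom_of_range_le {A : Type u} {B : Type v} {Γ : Type w} [Group A] [Group B] [Group Γ]
    {ι₁ : A →* Γ} (hinj : Function.Injective ι₁) {ι₂ : B →* Γ} (h : ι₂.range ≤ ι₁.range) :
    ∃ e : B →* A, ∀ x, ι₁ (e x) = ι₂ x := by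
  refine ⟨(MonoidHom.ofInjective hinj).symm.toMonoidHom.comp
    (ι₂.codRestrict ι₁.range (fun x => h ⟨x, rfl⟩)), fun x => ?_⟩
  have h1 := (MonoidHom.ofInjective hinj).apply_symm_apply
    (ι₂.codRestrict ι₁.range (fun x => h ⟨x, rfl⟩) x)
  have h2 := congrArg Subtype.val h1
  rw [MonoidHom.ofInjective_apply] at h2
  exact h2

/-- two systems realized by the same finite group on the same Sylow subgroup are constrained
together. -/
theorem constrained_of_common_realization {Ω₁ : Type u} [Group Ω₁] {S₁ : Subgroup Ω₁} [Finite S₁]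
    {Ω₂ : Type v} [Group Ω₂] {S₂ : Subgroup Ω₂} {p : ℕ} [Fact p.Prime] (hS₁ : IsPGroup p S₁)
    {F₁ : FusionSystem S₁} {F₂ : FusionSystem S₂} {Γ : Type w} [Group Γ] [Finite Γ]
    {ι₁ : S₁ →* Γ} {ι₂ : S₂ →* Γ} (h₁ : F₁.IsRealizedBy ι₁) (h₂ : F₂.IsRealizedBy ι₂)
    (hr : ι₂.range = ι₁.range) (T : Sylow p Γ) (hT : (T : Subgroup Γ) = ι₂.range)
    (hF₁ : F₁.IsConstrained p) : F₂.IsConstrained p := by
  obtain ⟨M, _, κ, hmod⟩ := Model.exists_model p hS₁ F₁ hF₁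
  obtain ⟨hfinM, hrealM, ⟨TM, hTM⟩, hc⟩ := hmod
  obtain ⟨e, he⟩ := exists_hom_of_range_le h₁.1 (le_of_eq hr)
  have hinje : Function.Injective e := by
    intro x y hxy
    apply h₂.1
    rw [← he x, ← he y, hxy]
  have hsurje : Function.Surjective e := by
    intro y
    have hy : ι₁ y ∈ ι₂.range := by rw [hr]; exact ⟨y, rfl⟩
    obtain ⟨x, hx⟩ := hy
    refine ⟨x, h₁.1 ?_⟩
    rw [he x, hx]
  have hsat : F₂.IsSaturated p := Helper85.realized_isSaturated h₂ T hT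
  have hrange : (κ.comp e).range = κ.range := by
    ext y
    constructor
    · rintro ⟨x, rfl⟩; exact ⟨e x, rfl⟩
    · rintro ⟨y', rfl⟩
      obtain ⟨x, rfl⟩ := hsurje y'
      exact ⟨x, rfl⟩
  have hreal₂ : F₂.IsRealizedBy (κ.comp e) := by
    refine ⟨hrealM.1.comp hinje, fun P₂ hP₂ φ₂ hφ₂ => ?_⟩
    -- the image of `P₂` in `S₁`
    obtain ⟨P₁, hP₁, hmemP₁, hexP₁'⟩ : ∃ P₁ : Subgroup Ω₁, P₁ ≤ S₁ ∧
        (∀ x : P₂, ((e ⟨x, hP₂ x.2⟩ : S₁) : Ω₁) ∈ P₁) ∧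
        (∀ y ∈ P₁, ∃ x : P₂, y = ((e ⟨x, hP₂ x.2⟩ : S₁) : Ω₁)) := by
      refine ⟨((P₂.subgroupOf S₂).map e).map S₁.subtype, ?_, ?_, ?_⟩
      · rintro _ ⟨s, -, rfl⟩
        exact s.2
      · intro x
        exact ⟨e ⟨x, hP₂ x.2⟩, ⟨⟨x, hP₂ x.2⟩, Subgroup.mem_subgroupOf.2 x.2, rfl⟩, rfl⟩
      · rintro _ ⟨s, ⟨x, hx, rfl⟩, rfl⟩
        exact ⟨⟨x, Subgroup.mem_subgroupOf.1 hx⟩, rfl⟩
    have hexP₁ : ∀ y : P₁, ∃ x : P₂, (⟨y, hP₁ y.2⟩ : S₁) = e ⟨x, hP₂ x.2⟩ := by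
      intro y
      obtain ⟨x, hx⟩ := hexP₁' y y.2
      exact ⟨x, Subtype.ext hx⟩
    constructor
    · intro hφ
      obtain ⟨g, hg⟩ := (h₂.2 P₂ hP₂ φ₂ hφ₂).1 hφ
      have hg' : ∀ y : P₁, g * ι₁ ⟨y, hP₁ y.2⟩ * g⁻¹ ∈ ι₁.range := by
        intro y
        obtain ⟨x, hx⟩ := hexP₁ y
        rw [hx, he, ← hg x, ← hr]
        exact ⟨_, rfl⟩
      obtain ⟨ψ, hψS, hψ⟩ := Helper85.exists_lift_conj h₁.1 hP₁ g hg'
      have hψF : ψ ∈ F₁.Hom P₁ := (h₁.2 P₁ hP₁ ψ hψS).2 ⟨g, hψ⟩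
      obtain ⟨m, hm⟩ := (hrealM.2 P₁ hP₁ ψ hψS).1 hψF
      refine ⟨m, fun x => ?_⟩
      have key : e ⟨φ₂ x, hφ₂ x⟩ = ⟨ψ ⟨e ⟨x, hP₂ x.2⟩, hmemP₁ x⟩, hψS _⟩ := by
        apply h₁.1
        rw [he, hg x, hψ ⟨e ⟨x, hP₂ x.2⟩, hmemP₁ x⟩, ← he ⟨x, hP₂ x.2⟩]
      show κ (e ⟨φ₂ x, hφ₂ x⟩) = m * κ (e ⟨x, hP₂ x.2⟩) * m⁻¹
      rw [key]
      exact hm ⟨e ⟨x, hP₂ x.2⟩, hmemP₁ x⟩
    · rintro ⟨m, hm⟩
      have hm1 : ∀ x : P₂, κ (e ⟨φ₂ x, hφ₂ x⟩) = m * κ (e ⟨x, hP₂ x.2⟩) * m⁻¹ := hm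
      have hm' : ∀ y : P₁, m * κ ⟨y, hP₁ y.2⟩ * m⁻¹ ∈ κ.range := by
        intro y
        obtain ⟨x, hx⟩ := hexP₁ y
        rw [hx, ← hm1 x]
        exact ⟨_, rfl⟩
      obtain ⟨ψ, hψS, hψ⟩ := Helper85.exists_lift_conj hrealM.1 hP₁ m hm'
      have hψF : ψ ∈ F₁.Hom P₁ := (hrealM.2 P₁ hP₁ ψ hψS).2 ⟨m, hψ⟩
      obtain ⟨g, hg⟩ := (h₁.2 P₁ hP₁ ψ hψS).1 hψF
      rw [h₂.2 P₂ hP₂ φ₂ hφ₂]
      refine ⟨g, fun x => ?_⟩
      have key : e ⟨φ₂ x, hφ₂ x⟩ = ⟨ψ ⟨e ⟨x, hP₂ x.2⟩, hmemP₁ x⟩, hψS _⟩ := by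
        apply hrealM.1
        rw [hm1 x, hψ ⟨e ⟨x, hP₂ x.2⟩, hmemP₁ x⟩]
      rw [← he, key, ← he ⟨x, hP₂ x.2⟩]
      exact hg ⟨e ⟨x, hP₂ x.2⟩, hmemP₁ x⟩
  have hmod₂ : F₂.IsModel p M (κ.comp e) :=
    ⟨hfinM, hreal₂, ⟨TM, by rw [hTM, hrange]⟩, hc⟩
  exact Helper85.ModelCore.isConstrained_of_model hsat hmod₂

section subnormal

variable {G : Type u} [Group G]

theorem constrained_top_aux {p : ℕ} (S T : Subgroup G) (hT : T = S) (h : T ≤ ⊤)
    (hF : (groupFusionSystem S).IsConstrained p) :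
    (fusionSystemOfSubgroup ⊤ T h).IsConstrained p := by
  subst hT
  rw [← Helper85.groupFusionSystem_eq]
  exact hF

/-- subnormal subgroups: the Sylow intersection and the relative fusion system. -/
theorem subnormal_aux [Finite G] {p : ℕ} [Fact p.Prime] (S : Sylow p G)
    (hF : (groupFusionSystem (S : Subgroup G)).IsConstrained p) {H : Subgroup G}
    (hH : H.IsSubnormal) :
    IsSylIn p ((S : Subgroup G) ⊓ H) H ∧
      (fusionSystemOfSubgroup H ((S : Subgroup G) ⊓ H) inf_le_right).IsConstrained p := by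
  induction hH with
  | top =>
    refine ⟨?_, constrained_top_aux _ _ (inf_top_eq _) _ hF⟩
    exact (Helper85.isSylIn_of_sylow S le_top).of_eq_left (inf_top_eq _).symm
  | step H K hle hK hN ih =>
    obtain ⟨hsylK, hconK⟩ := ih
    have hKn : K ≤ Subgroup.normalizer (H : Set G) :=
      (Subgroup.normal_subgroupOf_iff_le_normalizer hle).1 hN
    have hsylH : IsSylIn p ((S : Subgroup G) ⊓ H) H := by
      have h1 := Helper85.IsSylIn.inf_of_le_normalizer hsylK inf_le_right hle hKn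
      exact h1.of_eq_left (by rw [inf_assoc, inf_eq_right.2 hle])
    refine ⟨hsylH, ?_⟩
    have hpK : IsPGroup p ↥((S : Subgroup G) ⊓ K) := S.isPGroup'.to_le inf_le_left
    apply Helper85.ConsNormal.constrained_of_subsystem hpK hconK
      (Helper85.rel_isSaturated inf_le_right hsylH)
    · intro P φ hφ
      obtain ⟨hP, hφT, g, hgH, hg⟩ := hφ
      exact ⟨hP.trans (inf_le_inf_left _ hle), fun x => (inf_le_inf_left _ hle) (hφT x), g,
        hle hgH, hg⟩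
    · refine ⟨inf_le_inf_left _ hle, fun R hR φ hφ x => ?_⟩
      obtain ⟨hP, hφT, g, hgK, hg⟩ := hφ
      refine ⟨(hφT x).1, ?_⟩
      rw [hg x]
      exact ((Subgroup.mem_normalizer_iff.1 (hKn hgK)) _).1 (hR x.2).2

/-- the fusion system of a subnormal subgroup `H` on `S ∩ H` is constrained when that of the group
is. -/
theorem constrained_subgroupOf [Finite G] {p : ℕ} [Fact p.Prime] (S : Sylow p G)
    (hF : (groupFusionSystem (S : Subgroup G)).IsConstrained p) {H : Subgroup G}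
    (hH : H.IsSubnormal) :
    (∃ R : Sylow p ↥H, (R : Subgroup ↥H) = (S : Subgroup G).subgroupOf H) ∧
      (groupFusionSystem ((S : Subgroup G).subgroupOf H)).IsConstrained p := by
  obtain ⟨hsyl, hcon⟩ := subnormal_aux S hF hH
  obtain ⟨R, hR⟩ := hsyl
  have hR' : (R : Subgroup ↥H) = (S : Subgroup G).subgroupOf H := by
    rw [hR, Subgroup.inf_subgroupOf_right]
  refine ⟨⟨R, hR'⟩, ?_⟩
  have hp : IsPGroup p ↥((S : Subgroup G) ⊓ H) := S.isPGroup'.to_le inf_le_left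
  have hrange : (Subgroup.inclusion (inf_le_right : (S : Subgroup G) ⊓ H ≤ H)).range =
      (S : Subgroup G).subgroupOf H := by
    ext y
    constructor
    · rintro ⟨x, rfl⟩
      exact Subgroup.mem_subgroupOf.2 x.2.1
    · intro hy
      exact ⟨⟨y, Subgroup.mem_subgroupOf.1 hy, y.2⟩, Subtype.ext rfl⟩
  refine constrained_of_common_realization hp (rel_isRealizedBy H _ inf_le_right)
    (group_isRealizedBy _) ?_ R ?_ hcon
  · rw [Subgroup.range_subtype, hrange]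
  · rw [hR', Subgroup.range_subtype]

end subnormal

end ConsGroup
end Cfsg.Agent.Lib.Helper84
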