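import Mathlib
import Cfsg.Prelude.Def_FusionSystem
import Cfsg.Agent.Lib.Helper84.ConsGroup
import Cfsg.Agent.Lib.Helper84.Model5

set_option autoImplicit false

/-!
# Central quotients of groups with constrained fusion system

If the fusion system of a finite group `Γ` on a Sylow `p`-subgroup is constrained, so is the fusion
system of `Γ/Z` on the image of that Sylow subgroup, for `Z` central: the model of the first system
modulo the image of `Z ∩ P` is a model of the second.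
-/

namespace Cfsg.Agent.Lib.Helper84
namespace ConsGroup

open Cfsg Cfsg.FusionSystem

universe u v w

theorem exists_lift_of_ker_le {A : Type u} {B : Type v} {C : Type w} [Group A] [Group B] [Group C]
    (g₀ : A →* B) (hs : Function.Surjective g₀) (f : A →* C) (hk : g₀.ker ≤ f.ker) :
    ∃ ι : B →* C, ∀ x, ι (g₀ x) = f x :=
  ⟨g₀.liftOfRightInverse (Function.surjInv hs) (Function.rightInverse_surjInv hs) ⟨f, hk⟩,
    fun x => g₀.liftOfRightInverse_comp_apply _ _ ⟨f, hk⟩ x⟩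

theorem normal_of_le_center {Γ : Type u} [Group Γ] {Z : Subgroup Γ}
    (hZ : Z ≤ Subgroup.center Γ) : Z.Normal :=
  ⟨fun n hn g => by
    rw [Subgroup.mem_center_iff.1 (hZ hn) g, mul_inv_cancel_right]
    exact hn⟩

theorem isPGroup_zpowers {Γ : Type u} [Group Γ] {p : ℕ} {z : Γ} {k : ℕ} (hk : z ^ p ^ k = 1) :
    IsPGroup p (Subgroup.zpowers z) := by
  intro g
  obtain ⟨n, hn⟩ := Subgroup.mem_zpowers_iff.1 g.2
  refine ⟨k, Subtype.ext ?_⟩
  rw [Subgroup.coe_pow, ← hn, ← zpow_natCast, ← zpow_mul, mul_comm, zpow_mul, zpow_natCast, hk,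
    one_zpow]
  rfl

theorem mem_sylow_of_central {Γ : Type u} [Group Γ] {p : ℕ} [Fact p.Prime] (R : Sylow p Γ) {z : Γ}
    (hz : z ∈ Subgroup.center Γ) {k : ℕ} (hk : z ^ p ^ k = 1) : z ∈ (R : Subgroup Γ) :=
  normal_pgroup_le_sylow (normal_of_le_center (Subgroup.zpowers_le.2 hz)) (isPGroup_zpowers hk) R
    (Subgroup.mem_zpowers z)

/-- an element of `p`-power order whose image modulo a central subgroup lies in the image of a
Sylow `p`-subgroup lies in that Sylow subgroup. -/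
theorem mem_sylow_of_map_mem {Γ : Type u} [Group Γ] {p : ℕ} [Fact p.Prime] (R : Sylow p Γ)
    (Z : Subgroup Γ) [Z.Normal] (hZ : Z ≤ Subgroup.center Γ) {y : Γ} {k : ℕ}
    (hk : y ^ p ^ k = 1)
    (hy : QuotientGroup.mk' Z y ∈ (R : Subgroup Γ).map (QuotientGroup.mk' Z)) :
    y ∈ (R : Subgroup Γ) := by
  obtain ⟨x, hx, hxy⟩ := hy
  have hzZ : x⁻¹ * y ∈ Z := QuotientGroup.eq.1 hxy
  have hc := Subgroup.mem_center_iff.1 (hZ hzZ) x
  have h1 : y = x⁻¹ * y * x := by rw [← hc]; group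
  have hxy' : x * y = y * x := by
    conv_lhs => rw [h1]
    group
  obtain ⟨j, hj⟩ := R.isPGroup' ⟨x, hx⟩
  have hj' : x ^ p ^ j = 1 := by
    have := congrArg Subtype.val hj
    simpa using this
  have hcomm : Commute x⁻¹ y := (show Commute x y from hxy').inv_left
  have hz : (x⁻¹ * y) ^ p ^ (j + k) = 1 := by
    rw [hcomm.mul_pow, pow_add, inv_pow, pow_mul, hj', one_pow, inv_one, one_mul, mul_comm,
      pow_mul, hk, one_pow]
  have h2 := mem_sylow_of_central R (hZ hzZ) hz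
  have h3 := (R : Subgroup Γ).mul_mem hx h2
  simpa using h3

/-- the fusion system of a central quotient of a group with constrained fusion system is
constrained. -/
theorem constrained_central_quotient {Γ : Type u} [Group Γ] [Finite Γ] {p : ℕ} [Fact p.Prime]
    (P : Subgroup Γ) (R : Sylow p Γ) (hR : (R : Subgroup Γ) = P) (Z : Subgroup Γ) [hZn : Z.Normal]
    (hZ : Z ≤ Subgroup.center Γ) (hF : (groupFusionSystem P).IsConstrained p) :
    (groupFusionSystem (P.map (QuotientGroup.mk' Z))).IsConstrained p := by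
  subst hR
  classical
  have hPp : IsPGroup p ↥(R : Subgroup Γ) := R.isPGroup'
  obtain ⟨M, _, κ, hmod⟩ := Model.exists_model p hPp _ hF
  have hmod' := hmod
  obtain ⟨hfinM, ⟨hinjκ, hrκ⟩, ⟨TM, hTM⟩, hc⟩ := hmod
  have hQn : (pCore p M).Normal :=
    @Subgroup.normal_of_characteristic _ _ _ (Helper63.pCore_characteristic' p M)
  have hcore_le : pCore p M ≤ κ.range := hTM ▸ pCore_le_sylow p TM
  -- images of central elements are central
  have hcen : ∀ (z : Γ) (hzP : z ∈ (R : Subgroup Γ)), z ∈ Z →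
      ∀ m : M, m * κ ⟨z, hzP⟩ = κ ⟨z, hzP⟩ * m := by
    intro z hzP hzZ m
    obtain ⟨hUn, hUc⟩ := Model.pre_pCore_normal_centric hmod'
    have hUle : Helper85.preSub κ (pCore p M) ≤ (R : Subgroup Γ) := Helper85.preSub_le _ _
    have hzU : z ∈ Helper85.preSub κ (pCore p M) := by
      apply hUc.2 _ (isConj_refl _ hUc.1)
      rw [mem_centralizerIn]
      exact ⟨hzP, fun y _ => (Subgroup.mem_center_iff.1 (hZ hzZ) y)⟩
    have hm : ∀ x : Helper85.preSub κ (pCore p M), m * κ ⟨x, hUle x.2⟩ * m⁻¹ ∈ κ.range := by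
      intro x
      apply hcore_le
      exact hQn.conj_mem _ (Helper85.mem_preSub.1 x.2).2 m
    obtain ⟨ψ, hψP, hψ⟩ := Helper85.exists_lift_conj hinjκ hUle m hm
    have hψF : ψ ∈ (groupFusionSystem (R : Subgroup Γ)).Hom _ := (hrκ _ hUle ψ hψP).2 ⟨m, hψ⟩
    obtain ⟨-, -, g, hg⟩ := hψF
    have h1 : ψ ⟨z, hzU⟩ = z := by
      rw [hg]
      show g * z * g⁻¹ = z
      rw [Subgroup.mem_center_iff.1 (hZ hzZ) g, mul_inv_cancel_right]
    have h3 : (⟨ψ ⟨z, hzU⟩, hψP ⟨z, hzU⟩⟩ : (R : Subgroup Γ)) = ⟨z, hzP⟩ := Subtype.ext h1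
    have h4 : κ ⟨z, hzP⟩ = m * κ ⟨z, hzP⟩ * m⁻¹ := by
      have h2 := hψ ⟨z, hzU⟩
      rw [h3] at h2
      exact h2
    calc m * κ ⟨z, hzP⟩ = (m * κ ⟨z, hzP⟩ * m⁻¹) * m := by group
      _ = κ ⟨z, hzP⟩ * m := by rw [← h4]
  -- the central subgroup of the model
  obtain ⟨Z₀, hZ₀def⟩ : ∃ Z₀ : Subgroup M,
      Z₀ = ((Z ⊓ (R : Subgroup Γ)).subgroupOf (R : Subgroup Γ)).map κ := ⟨_, rfl⟩
  have hZ₀mem : ∀ y : M, y ∈ Z₀ ↔
      ∃ (z : Γ) (hzP : z ∈ (R : Subgroup Γ)), z ∈ Z ∧ κ ⟨z, hzP⟩ = y := by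
    intro y
    rw [hZ₀def]
    constructor
    · rintro ⟨x, hx, rfl⟩
      exact ⟨x, x.2, (Subgroup.mem_subgroupOf.1 hx).1, rfl⟩
    · rintro ⟨z, hzP, hzZ, rfl⟩
      exact ⟨⟨z, hzP⟩, Subgroup.mem_subgroupOf.2 ⟨hzZ, hzP⟩, rfl⟩
  have hZ₀c : Z₀ ≤ Subgroup.center M := by
    intro y hy
    obtain ⟨z, hzP, hzZ, rfl⟩ := (hZ₀mem y).1 hy
    rw [Subgroup.mem_center_iff]
    exact fun m => hcen z hzP hzZ m
  have hZ₀n : Z₀.Normal := normal_of_le_center hZ₀c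
  have hZ₀r : Z₀ ≤ κ.range := by
    intro y hy
    obtain ⟨z, hzP, -, rfl⟩ := (hZ₀mem y).1 hy
    exact ⟨_, rfl⟩
  have hZ₀p : IsPGroup p Z₀ := by
    rw [hZ₀def]; exact (hPp.to_subgroup _).map κ
  have hZ₀core : Z₀ ≤ pCore p M := le_pCore hZ₀n hZ₀p
  -- the quotient maps
  obtain ⟨f, hf⟩ : ∃ f : ↥(R : Subgroup Γ) →* M ⧸ Z₀, ∀ x, f x = QuotientGroup.mk' Z₀ (κ x) :=
    ⟨(QuotientGroup.mk' Z₀).comp κ, fun x => rfl⟩
  obtain ⟨g₀, hg₀⟩ : ∃ g₀ : ↥(R : Subgroup Γ) →* ↥((R : Subgroup Γ).map (QuotientGroup.mk' Z)),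
      ∀ x, ((g₀ x : ↥((R : Subgroup Γ).map (QuotientGroup.mk' Z))) : Γ ⧸ Z) =
        QuotientGroup.mk' Z (x : Γ) :=
    ⟨((QuotientGroup.mk' Z).comp (R : Subgroup Γ).subtype).codRestrict _
      (fun x => ⟨x, x.2, rfl⟩), fun x => rfl⟩
  have hg₀s : Function.Surjective g₀ := by
    rintro ⟨_, x, hx, rfl⟩
    exact ⟨⟨x, hx⟩, Subtype.ext (hg₀ _)⟩
  have hker : g₀.ker ≤ f.ker := by
    intro x hx
    rw [MonoidHom.mem_ker] at hx ⊢
    have h1 : QuotientGroup.mk' Z (x : Γ) = 1 := by rw [← hg₀, hx]; rfl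
    have h2 : (x : Γ) ∈ Z := (QuotientGroup.eq_one_iff _).1 h1
    rw [hf]
    exact (QuotientGroup.eq_one_iff _).2 ((hZ₀mem _).2 ⟨x, x.2, h2, rfl⟩)
  obtain ⟨ιb, hιb⟩ := exists_lift_of_ker_le g₀ hg₀s f hker
  have hιinj : Function.Injective ιb := by
    rw [injective_iff_map_eq_one]
    intro y hy
    obtain ⟨x, rfl⟩ := hg₀s y
    rw [hιb, hf] at hy
    have h1 : κ x ∈ Z₀ := (QuotientGroup.eq_one_iff _).1 hy
    obtain ⟨z, hzP, hzZ, hzx⟩ := (hZ₀mem _).1 h1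
    have h2 : (⟨z, hzP⟩ : (R : Subgroup Γ)) = x := hinjκ hzx
    apply Subtype.ext
    rw [hg₀]
    show QuotientGroup.mk' Z (x : Γ) = 1
    rw [← h2]
    exact (QuotientGroup.eq_one_iff _).2 hzZ
  have hrealb : (groupFusionSystem ((R : Subgroup Γ).map (QuotientGroup.mk' Z))).IsRealizedBy ιb := by
    refine ⟨hιinj, fun P₁b hP₁b φb hφb => ?_⟩
    obtain ⟨P₁, hP₁, hP₁mem⟩ : ∃ P₁ : Subgroup Γ, P₁ ≤ (R : Subgroup Γ) ∧
        ∀ x, x ∈ P₁ ↔ x ∈ (R : Subgroup Γ) ∧ QuotientGroup.mk' Z x ∈ P₁b :=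
      ⟨(R : Subgroup Γ) ⊓ P₁b.comap (QuotientGroup.mk' Z), inf_le_left, fun x => Iff.rfl⟩
    have hlift : ∀ xb : P₁b, ∃ x : P₁, QuotientGroup.mk' Z (x : Γ) = xb := by
      intro xb
      obtain ⟨x, hx, hxb⟩ := hP₁b xb.2
      exact ⟨⟨x, (hP₁mem x).2 ⟨hx, by rw [hxb]; exact xb.2⟩⟩, hxb⟩
    constructor
    · rintro ⟨-, -, gb, hgb⟩
      obtain ⟨g, rfl⟩ := QuotientGroup.mk'_surjective Z gb
      have hA : ∀ x : P₁, g * x * g⁻¹ ∈ (R : Subgroup Γ) := by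
        intro x
        obtain ⟨hxP, hxb⟩ := (hP₁mem x).1 x.2
        obtain ⟨k, hk⟩ := hPp ⟨x, hxP⟩
        have hk' : (x : Γ) ^ p ^ k = 1 := by
          have := congrArg Subtype.val hk
          simpa using this
        apply mem_sylow_of_map_mem R Z hZ (k := k)
        · rw [conj_pow, hk']; group
        · have h1 := hgb ⟨QuotientGroup.mk' Z x, hxb⟩
          have h2 := hφb ⟨QuotientGroup.mk' Z x, hxb⟩
          rw [h1] at h2
          simpa using h2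
      have hφ₁ : conjHom P₁ g ∈ (groupFusionSystem (R : Subgroup Γ)).Hom P₁ :=
        ⟨hP₁, hA, g, fun x => rfl⟩
      obtain ⟨m, hm⟩ := (hrκ P₁ hP₁ (conjHom P₁ g) hA).1 hφ₁
      refine ⟨QuotientGroup.mk' Z₀ m, fun xb => ?_⟩
      obtain ⟨x, hx⟩ := hlift xb
      have e1 : (⟨(xb : Γ ⧸ Z), hP₁b xb.2⟩ : ↥((R : Subgroup Γ).map (QuotientGroup.mk' Z))) =
          g₀ ⟨x, hP₁ x.2⟩ := Subtype.ext (by rw [hg₀]; exact hx.symm)
      have e2 : (⟨φb xb, hφb xb⟩ : ↥((R : Subgroup Γ).map (QuotientGroup.mk' Z))) =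
          g₀ ⟨g * x * g⁻¹, hA x⟩ := by
        apply Subtype.ext
        rw [hg₀]
        show φb xb = QuotientGroup.mk' Z (g * x * g⁻¹)
        rw [hgb xb, ← hx]
        simp
      rw [e1, e2, hιb, hιb, hf, hf, ← map_inv, ← map_mul, ← map_mul]
      exact congrArg _ (hm x)
    · rintro ⟨mb, hmb⟩
      obtain ⟨m, rfl⟩ := QuotientGroup.mk'_surjective Z₀ mb
      have hB : ∀ x : P₁, m * κ ⟨x, hP₁ x.2⟩ * m⁻¹ ∈ κ.range := by
        intro x
        obtain ⟨hxP, hxb⟩ := (hP₁mem x).1 x.2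
        have h1 := hmb ⟨QuotientGroup.mk' Z x, hxb⟩
        have e1 : (⟨QuotientGroup.mk' Z (x : Γ), hP₁b hxb⟩ :
            ↥((R : Subgroup Γ).map (QuotientGroup.mk' Z))) = g₀ ⟨x, hxP⟩ :=
          Subtype.ext (by rw [hg₀])
        obtain ⟨x'', hx''⟩ := hg₀s ⟨φb ⟨QuotientGroup.mk' Z x, hxb⟩, hφb _⟩
        rw [e1, ← hx'', hιb, hιb, hf, hf, ← map_inv, ← map_mul, ← map_mul] at h1
        have h2 : (κ x'')⁻¹ * (m * κ ⟨x, hxP⟩ * m⁻¹) ∈ Z₀ := QuotientGroup.eq.1 h1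
        have h3 := hZ₀r h2
        have h4 : κ x'' ∈ κ.range := ⟨_, rfl⟩
        have h5 := κ.range.mul_mem h4 h3
        simpa using h5
      obtain ⟨ψ, hψP, hψ⟩ := Helper85.exists_lift_conj hinjκ hP₁ m hB
      have hψF : ψ ∈ (groupFusionSystem (R : Subgroup Γ)).Hom P₁ := (hrκ P₁ hP₁ ψ hψP).2 ⟨m, hψ⟩
      obtain ⟨-, -, g, hg⟩ := hψF
      refine ⟨hP₁b, hφb, QuotientGroup.mk' Z g, fun xb => ?_⟩
      obtain ⟨x, hx⟩ := hlift xb
      have e1 : (⟨(xb : Γ ⧸ Z), hP₁b xb.2⟩ : ↥((R : Subgroup Γ).map (QuotientGroup.mk' Z))) =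
          g₀ ⟨x, hP₁ x.2⟩ := Subtype.ext (by rw [hg₀]; exact hx.symm)
      have h1 := hmb xb
      rw [e1, hιb, hf, ← map_inv, ← map_mul, ← map_mul, ← hψ x] at h1
      have h2 : ιb ⟨φb xb, hφb xb⟩ = ιb (g₀ ⟨ψ x, hψP x⟩) := by rw [h1, hιb, hf]
      have h3 := hιinj h2
      have h4 : φb xb = QuotientGroup.mk' Z (ψ x) := by
        have h5 := congrArg Subtype.val h3
        rw [hg₀] at h5
        exact h5
      show φb xb = QuotientGroup.mk' Z g * xb * (QuotientGroup.mk' Z g)⁻¹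
      rw [h4, hg x, ← hx]
      simp
  obtain ⟨T', hT'⟩ := Helper85.ModelCore.exists_sylow_quotient TM hTM Z₀
  have hrangeb : ιb.range = ((QuotientGroup.mk' Z₀).comp κ).range := by
    ext y
    constructor
    · rintro ⟨xb, rfl⟩
      obtain ⟨x, rfl⟩ := hg₀s xb
      exact ⟨x, by rw [hιb, hf]; rfl⟩
    · rintro ⟨x, rfl⟩
      exact ⟨g₀ x, by rw [hιb, hf]; rfl⟩
  have hcb : Subgroup.centralizer ((pCore p (M ⧸ Z₀) : Subgroup (M ⧸ Z₀)) : Set (M ⧸ Z₀)) ≤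
      pCore p (M ⧸ Z₀) := by
    have himg : (pCore p M).map (QuotientGroup.mk' Z₀) ≤ pCore p (M ⧸ Z₀) :=
      le_pCore (hQn.map _ (QuotientGroup.mk'_surjective Z₀)) ((pCore_isPGroup p M).map _)
    intro mb hmb
    obtain ⟨m, rfl⟩ := QuotientGroup.mk'_surjective Z₀ mb
    apply himg
    refine ⟨m, ?_, rfl⟩
    apply Helper85.ConsNormal.mem_pCore_of_stabilizes hc Z₀ hZ₀core
    · intro q hq
      have h1 := Subgroup.mem_centralizer_iff.1 hmb _ (himg ⟨q, hq, rfl⟩)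
      have h2 : QuotientGroup.mk' Z₀ (m * q * m⁻¹ * q⁻¹) = 1 := by
        rw [map_mul, map_mul, map_mul, map_inv, map_inv, ← h1]
        group
      exact (QuotientGroup.eq_one_iff _).1 h2
    · intro t ht
      exact Subgroup.mem_center_iff.1 (hZ₀c ht) m
  have hTb : (T' : Subgroup (M ⧸ Z₀)) = ιb.range := by rw [hT', hrangeb]
  have hmodb : (groupFusionSystem ((R : Subgroup Γ).map (QuotientGroup.mk' Z))).IsModel p
      (M ⧸ Z₀) ιb := ⟨inferInstance, hrealb, ⟨T', hTb⟩, hcb⟩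
  exact Helper85.ModelCore.isConstrained_of_model (Helper85.realized_isSaturated hrealb T' hTb)
    hmodb

end ConsGroup
end Cfsg.Agent.Lib.Helper84
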