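import Mathlib
import Cfsg.Prelude.Def_FusionSystem
import Cfsg.Prelude.Def_TwoFusion
import Cfsg.Agent.Lib.Helper84.DFac2

set_option autoImplicit false

namespace Cfsg.Agent.Lib.Helper84.DFac

open Cfsg Cfsg.FusionSystem
open Cfsg.Agent.Lib.Helper88 (Mor extFun extFun_mem extFun_apply img mor_of_hom hom_of_mor mor_conj mor_id)

variable {Ω : Type*} [Group Ω] {S : Subgroup Ω}

section
variable [Finite S] {F : FusionSystem S} {S₁ S₂ : Subgroup Ω}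

theorem le_cent_of_prod (hprod : IsInternalDirectProduct S₁ S₂ S) : S₁ ≤ centralizerIn S S₂ := by
  obtain ⟨hS₁, hS₂, hcomm, -, hsup⟩ := hprod
  intro x hx
  refine ⟨hS₁ hx, ?_⟩
  show x ∈ Subgroup.centralizer (S₂ : Set Ω)
  rw [Subgroup.mem_centralizer_iff]
  intro z hz
  exact (hcomm x hx z hz).symm

theorem dec_of_prod (hprod : IsInternalDirectProduct S₁ S₂ S) :
    ∀ g ∈ S, ∃ a ∈ S₁, ∃ b ∈ S₂, g = a * b := by
  obtain ⟨hS₁, hS₂, hcomm, -, hsup⟩ := hprod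
  intro g hg
  rw [← hsup] at hg
  exact exists_mul_of_mem_sup hcomm hg

theorem dec₁_of_prod (hprod : IsInternalDirectProduct S₁ S₂ S) :
    ∀ g ∈ S, ∃ a ∈ S₁, ∃ b ∈ Subgroup.centralizer (S₁ : Set Ω), g = a * b := by
  intro g hg
  obtain ⟨a, ha, b, hb, rfl⟩ := dec_of_prod hprod g hg
  refine ⟨a, ha, b, ?_, rfl⟩
  rw [Subgroup.mem_centralizer_iff]
  intro z hz
  exact hprod.2.2.1 z hz b hb

/-- extension of an automorphism of `S₁` in the system to an automorphism of `S`. -/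
theorem exists_autPair_of_mem (p : ℕ) (hF : F.IsSaturated p)
    (hprod : IsInternalDirectProduct S₁ S₂ S) (h₁ : F.StronglyClosed S₁) {α : MulAut S₁}
    (hα : α ∈ F.autGroup S₁) :
    ∃ a ainv : Ω → Ω, AutPair F a ainv ∧ ∀ x : S₁, a x = ((α x : S₁) : Ω) := by
  obtain ⟨a, ainv, hp, hax⟩ := exists_aut_ext h₁ (fa_rec_of_stronglyClosed p F hF h₁).2
    (dec₁_of_prod hprod) ((Helper88.mem_autGroup_iff F h₁.1 α).mp hα)
    (fun x hx => by rw [extFun_mem _ hx]; exact (α _).2)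
  refine ⟨a, ainv, hp, fun x => ?_⟩
  rw [hax x x.2, extFun_apply]

/-- transport of a map on `P ≤ S₁` by an automorphism `α` of `S₁`: the source. -/
theorem map_aut_facts {α : MulAut S₁} {a ainv : Ω → Ω} (hp : AutPair F a ainv)
    (hS₁ : S₁ ≤ S) (hax : ∀ x : S₁, a x = ((α x : S₁) : Ω)) (P : Subgroup Ω) :
    (P.subgroupOf S₁).map (S₁.subtype.comp α.toMonoidHom) ≤ S₁ ∧
      ∀ y ∈ (P.subgroupOf S₁).map (S₁.subtype.comp α.toMonoidHom), ainv y ∈ P := by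
  constructor
  · rintro _ ⟨u, -, rfl⟩
    exact (α u).2
  · rintro _ ⟨u, hu, rfl⟩
    have hu' : (u : Ω) ∈ P := Subgroup.mem_subgroupOf.mp hu
    show ainv ((α u : S₁) : Ω) ∈ P
    rw [← hax u, hp.inv1 _ (hS₁ u.2)]
    exact hu'

end

/-- the ingredients of the statement on strongly closed direct factors. -/
theorem main [Finite S] (p : ℕ) [Fact p.Prime] (hS : IsPGroup p S) (F : FusionSystem S)
    (hF : F.IsSaturated p) (S₁ S₂ : Subgroup Ω) (hprod : IsInternalDirectProduct S₁ S₂ S)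
    (h₁ : F.StronglyClosed S₁) (h₂ : F.StronglyClosed S₂) (R R' : FusionSystem S₁)
    (hR : ∀ P : Subgroup Ω, P ≤ S₁ → R.Hom P = F.Hom P)
    (hR' : ∀ P : Subgroup Ω, P ≤ S₁ → R'.Hom P = F.centralizerHom S₂ P) :
    R.IsSaturated p ∧ R'.IsSaturated p ∧ R'.IsNormalIn F p ∧ R'.IsNormalIn R p ∧
      R.IsWeaklyNormalIn F p := by
  have hS₁ : S₁ ≤ S := hprod.1
  have hS₂ : S₂ ≤ S := hprod.2.1
  have hcomm := hprod.2.2.1
  have hsup : S₁ ⊔ S₂ = S := hprod.2.2.2.2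
  have hS₁C := le_cent_of_prod hprod
  have hdec₁ := dec₁_of_prod (S := S) hprod
  have hfinS₁ : Finite S₁ := finite_of_le hS₁
  -- saturation of R
  have hRsat : R.IsSaturated p := restrict_saturated p F hF h₁ hdec₁ R hR
  -- saturation of R'
  have hfinC : Finite (centralizerIn S S₂) := finite_of_le inf_le_left
  have hfc : F.IsFullyCentralized S₂ := by
    refine ⟨hS₂, fun Q hQ => ?_⟩
    obtain ⟨φ, hφ, hr⟩ := hQ
    have : Q = S₂ := by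
      rw [← hr]
      exact (Helper87.stronglyClosed_weaklyClosed F h₂).2 φ hφ
    rw [this]
  have hCsat : (centSystem F S₂ hS₂).IsSaturated p :=
    centralizerSystem_saturated p hS F hF S₂ hfc _ (isCentralizerSystem_centSystem F S₂ hS₂)
  have hS₁strC : (centSystem F S₂ hS₂).StronglyClosed S₁ :=
    ⟨hS₁C, fun P hP φ hφ x => h₁.2 P hP φ hφ.1 x⟩
  have hR'sat : R'.IsSaturated p :=
    restrict_saturated p (centSystem F S₂ hS₂) hCsat hS₁strC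
      (fun s hs => hdec₁ s hs.1) R' (fun P hP => hR' P hP)
  -- subsystem relations
  have hR'F : R'.IsSubsystemOf F := by
    intro P φ hφ
    have hP : P ≤ S₁ := (R'.le_of_mem hφ).1
    rw [hR' P hP] at hφ
    exact hφ.1
  have hRF : R.IsSubsystemOf F := by
    intro P φ hφ
    have hP : P ≤ S₁ := (R.le_of_mem hφ).1
    rw [hR P hP] at hφ
    exact hφ
  have hR'R : R'.IsSubsystemOf R := by
    intro P φ hφ
    have hP : P ≤ S₁ := (R'.le_of_mem hφ).1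
    rw [hR P hP]
    exact hR'F P hφ
  have hRaut : R.autGroup S₁ = F.autGroup S₁ := by
    unfold FusionSystem.autGroup
    rw [hR S₁ le_rfl]
  have hRstr : R.StronglyClosed S₁ := ⟨le_rfl, fun P _ φ hφ x => (R.le_of_mem hφ).2 x⟩
  -- invariance of R' under Aut_F(S₁)
  have hinvR' : ∀ (P : Subgroup Ω) (hPT : P ≤ S₁) (φ : P →* Ω), φ ∈ R'.Hom P →
      ∀ α ∈ F.autGroup S₁,
      ∃ χ ∈ R'.Hom ((P.subgroupOf S₁).map (S₁.subtype.comp α.toMonoidHom)),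
        ∀ (x : P) (hφx : φ x ∈ S₁)
          (hαx : ((α ⟨x, hPT x.2⟩ : S₁) : Ω) ∈
            (P.subgroupOf S₁).map (S₁.subtype.comp α.toMonoidHom)),
          χ ⟨(α ⟨x, hPT x.2⟩ : S₁), hαx⟩ = ((α ⟨φ x, hφx⟩ : S₁) : Ω) := by
    intro P hPT φ hφ α hα
    obtain ⟨a, ainv, hp, hax⟩ := exists_autPair_of_mem p hF hprod h₁ hα
    obtain ⟨hD', hD'P⟩ := map_aut_facts hp hS₁ hax P
    rw [hR' P hPT] at hφ
    have hφC : Mor (centSystem F S₂ h₂.1) P (extFun φ) := mor_of_hom (centSystem F S₂ h₂.1) hφ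
    obtain ⟨χ, hχ, hχf⟩ := cmor_conj h₂ hp hφC (hD'.trans hS₁C) hD'P
    refine ⟨χ, by rw [hR' _ hD']; exact hχ, ?_⟩
    intro x hφx hαx
    rw [hχf]
    show a (extFun φ (ainv ((α ⟨x, hPT x.2⟩ : S₁) : Ω))) = _
    rw [← hax ⟨x, hPT x.2⟩, hp.inv1 _ (hS₁ (hPT x.2)), extFun_apply]
    exact hax ⟨φ x, hφx⟩
  -- invariance of R under Aut_F(S₁)
  have hinvR : ∀ (P : Subgroup Ω) (hPT : P ≤ S₁) (φ : P →* Ω), φ ∈ R.Hom P →
      ∀ α ∈ F.autGroup S₁,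
      ∃ χ ∈ R.Hom ((P.subgroupOf S₁).map (S₁.subtype.comp α.toMonoidHom)),
        ∀ (x : P) (hφx : φ x ∈ S₁)
          (hαx : ((α ⟨x, hPT x.2⟩ : S₁) : Ω) ∈
            (P.subgroupOf S₁).map (S₁.subtype.comp α.toMonoidHom)),
          χ ⟨(α ⟨x, hPT x.2⟩ : S₁), hαx⟩ = ((α ⟨φ x, hφx⟩ : S₁) : Ω) := by
    intro P hPT φ hφ α hα
    obtain ⟨a, ainv, hp, hax⟩ := exists_autPair_of_mem p hF hprod h₁ hα
    obtain ⟨hD', hD'P⟩ := map_aut_facts hp hS₁ hax P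
    rw [hR P hPT] at hφ
    have hφm : Mor F P (extFun φ) := mor_of_hom F hφ
    have hm : Mor F ((P.subgroupOf S₁).map (S₁.subtype.comp α.toMonoidHom))
        (fun y => a (extFun φ (ainv y))) :=
      ((hp.hainv.res (hD'.trans hS₁)).comp hφm hD'P).comp hp.ha
        (fun y hy => hφm.mem_S (hD'P y hy))
    obtain ⟨χ, hχ, hχf⟩ := hm
    refine ⟨χ, by rw [hR _ hD']; exact hχ, ?_⟩
    intro x hφx hαx
    rw [hχf]
    show a (extFun φ (ainv ((α ⟨x, hPT x.2⟩ : S₁) : Ω))) = _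
    rw [← hax ⟨x, hPT x.2⟩, hp.inv1 _ (hS₁ (hPT x.2)), extFun_apply]
    exact hax ⟨φ x, hφx⟩
  -- Frattini
  have hfrat : ∀ (P : Subgroup Ω), P ≤ S₁ → ∀ (φ : P →* Ω), φ ∈ F.Hom P →
      ∃ α ∈ F.autGroup S₁, ∃ φ₀ ∈ R'.Hom P, ∀ (x : P) (hx : φ₀ x ∈ S₁),
        φ x = ((α ⟨φ₀ x, hx⟩ : S₁) : Ω) := by
    intro P hP φ hφ
    obtain ⟨a, ainv, t, hp, ht, he⟩ := frattini_cent p hF hprod h₁ h₂ hP (mor_of_hom F hφ)
    obtain ⟨α, hα, hαx⟩ := (hp.ha.res hS₁).exists_aut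
      (fun x hx => mor_mem_of_stronglyClosed h₁ hp.ha (hS₁ hx) hx)
    obtain ⟨φ₀, hφ₀, hφ₀t⟩ := ht
    refine ⟨α, hα, φ₀, by rw [hR' P hP]; exact hφ₀, fun x hx => ?_⟩
    rw [hαx]
    show φ x = a (φ₀ x)
    rw [hφ₀t, ← he x x.2, extFun_apply]
  -- extension condition in F
  have hextF : ∀ α ∈ R'.autGroup S₁, ∃ β ∈ F.autGroup (S₁ ⊔ centralizerIn S S₁),
      (∀ x : S₁, ((β (Subgroup.inclusion le_sup_left x) : ↥(S₁ ⊔ centralizerIn S S₁)) : Ω)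
        = ((α x : S₁) : Ω)) ∧
      ∀ c : ↥(S₁ ⊔ centralizerIn S S₁), (c : Ω) ∈ centralizerIn S S₁ →
        (c : Ω)⁻¹ * ((β c : ↥(S₁ ⊔ centralizerIn S S₁)) : Ω) ∈
          S₁ ⊓ Subgroup.centralizer (S₁ : Set Ω) := by
    intro α hα
    obtain ⟨φ, hφ, hφf⟩ := (Helper88.mem_autGroup_iff R' le_rfl α).mp hα
    rw [hR' S₁ le_rfl] at hφ
    obtain ⟨-, -, -, ψ, hψ, hext, hfix⟩ := hφ
    have hK : S₁ ⊔ centralizerIn S S₁ ≤ S₁ ⊔ S₂ := by
      rw [hsup]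
      exact sup_le hS₁ inf_le_left
    have hmK : Mor F (S₁ ⊔ centralizerIn S S₁) (extFun ψ) := (mor_of_hom F hψ).res hK
    have hf₁ : ∀ (x : Ω) (hx : x ∈ S₁), extFun ψ x = ((α ⟨x, hx⟩ : S₁) : Ω) := by
      intro x hx
      rw [extFun_mem ψ ((le_sup_left : S₁ ≤ S₁ ⊔ S₂) hx)]
      have h1 := hext ⟨x, hx⟩
      have h2 := hφf ⟨x, hx⟩
      rw [extFun_apply] at h2
      rw [← h2]
      exact h1
    have hf₂ : ∀ y ∈ S₂, extFun ψ y = y := by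
      intro y hy
      rw [extFun_mem ψ ((le_sup_right : S₂ ≤ S₁ ⊔ S₂) hy)]
      exact hfix ⟨y, hy⟩
    -- decomposition of elements of C_S(S₁)
    have hkey : ∀ c ∈ centralizerIn S S₁, ∃ (u : Ω) (hu : u ∈ S₁ ⊓ Subgroup.centralizer (S₁ : Set Ω)),
        ∃ v ∈ S₂, c = u * v ∧ extFun ψ c = ((α ⟨u, hu.1⟩ : S₁) : Ω) * v := by
      intro c hc
      obtain ⟨u, hu, v, hv, rfl⟩ := dec_of_prod hprod c hc.1
      have hvc : v ∈ Subgroup.centralizer (S₁ : Set Ω) := by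
        rw [Subgroup.mem_centralizer_iff]
        intro z hz
        exact hcomm z hz v hv
      have huc : u ∈ Subgroup.centralizer (S₁ : Set Ω) := by
        have h1 := Subgroup.mul_mem _ hc.2 (Subgroup.inv_mem _ hvc)
        have e : u * v * v⁻¹ = u := by group
        rwa [e] at h1
      refine ⟨u, ⟨hu, huc⟩, v, hv, rfl, ?_⟩
      have hm : Mor F (S₁ ⊔ S₂) (extFun ψ) := mor_of_hom F hψ
      rw [hm.map_mul ((le_sup_left : S₁ ≤ S₁ ⊔ S₂) hu) ((le_sup_right : S₂ ≤ S₁ ⊔ S₂) hv),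
        hf₁ u hu, hf₂ v hv]
    have hmaps : ∀ x ∈ S₁ ⊔ centralizerIn S S₁, extFun ψ x ∈ S₁ ⊔ centralizerIn S S₁ := by
      refine mor_sup_mem hmK (fun x hx => ?_) (fun c hc => ?_)
      · rw [hf₁ x hx]
        exact (le_sup_left : S₁ ≤ S₁ ⊔ centralizerIn S S₁) (α _).2
      · obtain ⟨u, hu, v, hv, -, he⟩ := hkey c hc
        rw [he]
        refine Subgroup.mul_mem _ ((le_sup_left : S₁ ≤ S₁ ⊔ centralizerIn S S₁) (α _).2)
          ((le_sup_right : centralizerIn S S₁ ≤ S₁ ⊔ centralizerIn S S₁) ⟨hS₂ hv, ?_⟩)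
        show v ∈ Subgroup.centralizer (S₁ : Set Ω)
        rw [Subgroup.mem_centralizer_iff]
        intro z hz
        exact hcomm z hz v hv
    obtain ⟨β, hβ, hβx⟩ := hmK.exists_aut hmaps
    refine ⟨β, hβ, fun x => ?_, fun c hc => ?_⟩
    · rw [hβx]
      exact hf₁ x x.2
    · rw [hβx]
      obtain ⟨u, hu, v, hv, hcuv, he⟩ := hkey c hc
      rw [he, hcuv]
      have hw : u⁻¹ * ((α ⟨u, hu.1⟩ : S₁) : Ω) ∈ S₁ ⊓ Subgroup.centralizer (S₁ : Set Ω) :=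
        Subgroup.mul_mem _ (Subgroup.inv_mem _ hu) (PIdxN.aut_center_mem α hu)
      have hvw : u⁻¹ * ((α ⟨u, hu.1⟩ : S₁) : Ω) * v = v * (u⁻¹ * ((α ⟨u, hu.1⟩ : S₁) : Ω)) :=
        hcomm _ hw.1 v hv
      have e : (u * v)⁻¹ * (((α ⟨u, hu.1⟩ : S₁) : Ω) * v) = u⁻¹ * ((α ⟨u, hu.1⟩ : S₁) : Ω) := by
        calc (u * v)⁻¹ * (((α ⟨u, hu.1⟩ : S₁) : Ω) * v)
            = v⁻¹ * (u⁻¹ * ((α ⟨u, hu.1⟩ : S₁) : Ω) * v) := by group
          _ = v⁻¹ * (v * (u⁻¹ * ((α ⟨u, hu.1⟩ : S₁) : Ω))) := by rw [hvw]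
          _ = u⁻¹ * ((α ⟨u, hu.1⟩ : S₁) : Ω) := by group
      rw [e]
      exact hw
  -- extension condition in R
  have hextR : ∀ α ∈ R'.autGroup S₁, ∃ β ∈ R.autGroup (S₁ ⊔ centralizerIn S₁ S₁),
      (∀ x : S₁, ((β (Subgroup.inclusion le_sup_left x) : ↥(S₁ ⊔ centralizerIn S₁ S₁)) : Ω)
        = ((α x : S₁) : Ω)) ∧
      ∀ c : ↥(S₁ ⊔ centralizerIn S₁ S₁), (c : Ω) ∈ centralizerIn S₁ S₁ →
        (c : Ω)⁻¹ * ((β c : ↥(S₁ ⊔ centralizerIn S₁ S₁)) : Ω) ∈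
          S₁ ⊓ Subgroup.centralizer (S₁ : Set Ω) := by
    intro α hα
    have hαR : α ∈ R.autGroup S₁ := Helper86.autGroup_mono R' R hR'R S₁ hα
    have hm := (Helper88.mem_autGroup_iff R le_rfl α).mp hαR
    have hK : S₁ ⊔ centralizerIn S₁ S₁ ≤ S₁ := sup_le le_rfl inf_le_left
    have hmK := hm.res hK
    obtain ⟨β, hβ, hβx⟩ := hmK.exists_aut (fun x hx => by
      rw [extFun_mem _ (hK hx)]
      exact (le_sup_left : S₁ ≤ S₁ ⊔ centralizerIn S₁ S₁) (α _).2)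
    refine ⟨β, hβ, fun x => ?_, fun c hc => ?_⟩
    · rw [hβx]
      exact extFun_apply _ x
    · rw [hβx, extFun_mem _ hc.1]
      exact Subgroup.mul_mem _ (Subgroup.inv_mem _ hc) (PIdxN.aut_center_mem α hc)
  refine ⟨hRsat, hR'sat, ⟨⟨hR'sat, hF, hR'F, h₁, hinvR', hfrat⟩, hextF⟩,
    ⟨⟨hR'sat, hRsat, hR'R, hRstr, ?_, ?_⟩, hextR⟩, ⟨hRsat, hF, hRF, h₁, hinvR, ?_⟩⟩
  · intro P hPT φ hφ α hα
    rw [hRaut] at hα
    exact hinvR' P hPT φ hφ α hα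
  · intro P hP φ hφ
    rw [hR P hP] at hφ
    obtain ⟨α, hα, φ₀, hφ₀, h⟩ := hfrat P hP φ hφ
    exact ⟨α, by rw [hRaut]; exact hα, φ₀, hφ₀, h⟩
  · intro P hP φ hφ
    exact ⟨1, Subgroup.one_mem _, φ, by rw [hR P hP]; exact hφ, fun x hx => rfl⟩

end Cfsg.Agent.Lib.Helper84.DFac
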