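import Mathlib
import Cfsg.Prelude.Def_FusionSystem
import Cfsg.Agent.Lib.Helper84.FusionAlperin
import Cfsg.Agent.Lib.Helper84.FusionApps
import Cfsg.Agent.Lib.Helper84.StronglyEmb

set_option autoImplicit false

namespace Cfsg.Agent.Lib.Helper84

open Cfsg Cfsg.FusionSystem

variable {Ω : Type*} [Group Ω] {S : Subgroup Ω}

/-- core of the centric case: a subgroup `H'` of `Aut(P)` containing `Inn(P)` and every
automorphism in the system whose extender is bigger than `P` is everything or has strongly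
`p`-embedded image in `Out_F(P)`. -/
theorem centric_core [Finite S] (p : ℕ) [Fact p.Prime] (hS : IsPGroup p S) (F : FusionSystem S)
    {P : Subgroup Ω} (hPle : P ≤ S) (hPne : P ≠ S) (hC : centralizerIn S P ≤ P)
    (R : Sylow p (F.autGroup P))
    (hR : (R : Subgroup (F.autGroup P)) = (autInducedBy S P).subgroupOf (F.autGroup P))
    (H' : Subgroup (MulAut P)) (hInn : Inn P ≤ H')
    (hext : ∀ α ∈ F.autGroup P, ∀ g ∈ extender S P (P.subtype.comp α.toMonoidHom), g ∉ P → α ∈ H')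
    [hN : ((Inn P).subgroupOf (F.autGroup P)).Normal] :
    H'.subgroupOf (F.autGroup P) = ⊤ ∨ IsStronglyPEmbedded p ((H'.subgroupOf (F.autGroup P)).map
      (QuotientGroup.mk' ((Inn P).subgroupOf (F.autGroup P)))) := by
  have hfinP : Finite P := finite_of_le hPle
  have hfinA : Finite (F.autGroup P) := finite_autGroup F hPle
  have hker : ∀ (g : normalizerIn S P), conjN S P g ∈ Inn P → (g : Ω) ∈ P := by
    intro g h1
    obtain ⟨x, hx⟩ := h1
    refine mem_of_conj_eq_conj hPle hC (mem_normalizerIn.1 g.2).1 x.2 (fun y hy => ?_)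
    have h5 : ((MulAut.conj x ⟨y, hy⟩ : P) : Ω) = ((conjN S P g ⟨y, hy⟩ : P) : Ω) := by rw [hx]
    exact h5
  refine eq_top_or_stronglyPEmbedded ((Inn P).subgroupOf (F.autGroup P)) R
    (H'.subgroupOf (F.autGroup P)) ?_ ?_ ?_
  · intro α hα
    rw [Subgroup.mem_subgroupOf] at hα ⊢
    exact hInn hα
  · intro hle
    obtain ⟨g, hg, hgP⟩ := exists_mem_normalizerIn_not_mem hS hPle hPne
    have hgA : conjN S P ⟨g, hg⟩ ∈ F.autGroup P :=
      autInducedBy_le_autGroup F hPle (by rw [autInducedBy_eq_range]; exact ⟨_, rfl⟩)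
    have hmemR : (⟨conjN S P ⟨g, hg⟩, hgA⟩ : F.autGroup P) ∈ (R : Subgroup (F.autGroup P)) := by
      rw [hR, Subgroup.mem_subgroupOf, autInducedBy_eq_range]
      exact ⟨_, rfl⟩
    have := hle hmemR
    rw [Subgroup.mem_subgroupOf] at this
    exact hgP (hker _ this)
  · intro α τ hτ hτI ⟨τ', hτ', hI⟩
    rw [Subgroup.mem_subgroupOf]
    rw [hR, Subgroup.mem_subgroupOf, autInducedBy_eq_range] at hτ hτ'
    obtain ⟨g, hg⟩ := hτ
    obtain ⟨h, hh⟩ := hτ'
    rw [Subgroup.mem_subgroupOf] at hI hτI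
    obtain ⟨x, hx⟩ := hI
    have hgP : (g : Ω) ∉ P := fun hgP => hτI (by
      rw [← hg]
      exact ⟨⟨g, hgP⟩, by ext y; rfl⟩)
    have hz3 : (α : MulAut P) * conjN S P g = conjN S P h * MulAut.conj x * (α : MulAut P) := by
      have h7 : (MulAut.conj x : MulAut P) =
          (τ' : MulAut P)⁻¹ * ((α : MulAut P) * (τ : MulAut P) * (α : MulAut P)⁻¹) := hx
      rw [h7, hg, hh]; group
    refine hext α α.2 g ?_ hgP
    rw [mem_extender_iff]
    refine ⟨(mem_normalizerIn.1 g.2).1, (Subgroup.mem_inf.1 g.2).2, h * (x : Ω),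
      S.mul_mem (mem_normalizerIn.1 h.2).1 (hPle x.2), ?_⟩
    intro y hy
    have h6 := congrArg (fun β : MulAut P => ((β y : P) : Ω)) hz3
    simp only [MulAut.mul_apply] at h6
    have h8 : ((conjN S P h (MulAut.conj x ((α : MulAut P) y)) : P) : Ω) =
        h * (x * ((α : MulAut P) y : P) * (x : Ω)⁻¹) * (h : Ω)⁻¹ := rfl
    have h9 : (P.subtype.comp (MulEquiv.toMonoidHom (α : MulAut P))) y =
        (((α : MulAut P) y : P) : Ω) := rfl
    rw [h9]
    exact h6.trans (h8.trans (by group))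

/-- AKO Proposition I.3.3: for a fully normalized proper subgroup `P` of `S` in a saturated system,
the subgroup `H` of `Aut_F(P)` generated by the automorphisms extending to strictly larger subgroups
is all of `Aut_F(P)` if `P` is not essential, and has strongly `p`-embedded image in `Out_F(P)`
if `P` is essential. -/
theorem essential_dichotomy [Finite S] (p : ℕ) [Fact p.Prime] (hS : IsPGroup p S)
    (F : FusionSystem S) (hF : F.IsSaturated p) (P : Subgroup Ω) (hPS : P < S)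
    (hPn : F.IsFullyNormalized P) (H : Subgroup (MulAut P))
    (hH : H = Subgroup.closure {α : MulAut P | ∃ (Q : Subgroup Ω) (hPQ : P < Q) (φ : Q →* Ω),
      φ ∈ F.Hom Q ∧ ∀ x : P, φ (Subgroup.inclusion hPQ.le x) = α x}) :
    (¬ F.IsEssential p P ∧ H = F.autGroup P) ∨ (F.IsEssential p P ∧
      ∃ _ : ((Inn P).subgroupOf (F.autGroup P)).Normal,
        IsStronglyPEmbedded p ((H.subgroupOf (F.autGroup P)).map
          (QuotientGroup.mk' ((Inn P).subgroupOf (F.autGroup P))))) := by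
  have hPle : P ≤ S := hPS.le
  have hPne : P ≠ S := hPS.ne
  have hPc := fullyCentralized_of_fullyNormalized p hS F hF hPn
  have hPa := fullyAutomized_of_fullyNormalized p hS F hF hPn
  have hrec := receptive_of_fullyCentralized p hS F hF hPc
  have hHA : H ≤ F.autGroup P := by
    rw [hH, Subgroup.closure_le]
    rintro α ⟨Q, hPQ, φ, hφ, hφα⟩
    rw [SetLike.mem_coe, mem_autGroup_iff F hPle]
    exact hom_of_eq F (res_mem F hφ hPQ.le) (fun x => (hφα x).symm)
  have hstep2 : ∀ α ∈ F.autGroup P, ∀ g ∈ extender S P (P.subtype.comp α.toMonoidHom),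
      g ∉ P → α ∈ H := by
    intro α hα g hg hgP
    have hφ : P.subtype.comp α.toMonoidHom ∈ F.Hom P := (mem_autGroup_iff F hPle α).1 hα
    have hr : (P.subtype.comp α.toMonoidHom).range = P := IsFIso.range F hφ
    obtain ⟨χ, hχ, hχφ⟩ := hrec.2 P _ hφ hr
    have hPN : P ≤ extender S P (P.subtype.comp α.toMonoidHom) :=
      le_extender hPle _ (hom_mem_S F hφ)
    have hlt : P < extender S P (P.subtype.comp α.toMonoidHom) :=
      lt_of_le_of_ne hPN (fun h => hgP (h ▸ hg))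
    rw [hH]
    apply Subgroup.subset_closure
    exact ⟨_, hlt, χ, hχ, fun x => hχφ x x.2 (hPN x.2)⟩
  have hstep3 : autInducedBy S P ≤ H := by
    intro β hβ
    rw [autInducedBy_eq_range] at hβ
    obtain ⟨g, rfl⟩ := hβ
    obtain ⟨g₀, hg₀, hg₀P⟩ := exists_mem_normalizerIn_not_mem hS hPle hPne
    have hlt : P < normalizerIn S P :=
      lt_of_le_of_ne (le_normalizerIn hPle) (fun h => hg₀P (h ▸ hg₀))
    rw [hH]
    apply Subgroup.subset_closure
    exact ⟨normalizerIn S P, hlt, conjHom (normalizerIn S P) g,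
      F.conj_mem (normalizerIn_le S P) (mem_normalizerIn.1 g.2).1, fun x => rfl⟩
  by_cases hC : centralizerIn S P ≤ P
  swap
  · left
    obtain ⟨c, hc, hcP⟩ := SetLike.not_le_iff_exists.1 hC
    refine ⟨fun hess => hC (hess.1.2 P (isConj_refl F hPle)), le_antisymm hHA ?_⟩
    intro α hα
    exact hstep2 α hα c (centralizerIn_le_extender S P _ hc) hcP
  have hcen : F.IsCentric P := centric_of_centralizerIn_le F hPc hC
  have hfinP : Finite P := finite_of_le hPle
  have hfinA : Finite (F.autGroup P) := finite_autGroup F hPle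
  have hN : ((Inn P).subgroupOf (F.autGroup P)).Normal :=
    Subgroup.Normal.subgroupOf (innNormal P) _
  obtain ⟨R, hR⟩ := hPa.2
  have hker : ∀ (g : normalizerIn S P), conjN S P g ∈ Inn P → (g : Ω) ∈ P := by
    intro g h1
    obtain ⟨x, hx⟩ := h1
    refine mem_of_conj_eq_conj hPle hC (mem_normalizerIn.1 g.2).1 x.2 (fun y hy => ?_)
    have h5 : ((MulAut.conj x ⟨y, hy⟩ : P) : Ω) = ((conjN S P g ⟨y, hy⟩ : P) : Ω) := by rw [hx]
    exact h5
  have hInn : Inn P ≤ H := by
    rintro _ ⟨x, rfl⟩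
    apply hstep3
    rw [mem_autInducedBy_iff]
    exact ⟨x, hPle x.2, fun y => rfl⟩
  rcases centric_core p hS F hPle hPne hC R hR H hInn hstep2 with h | h
  · left
    rw [Subgroup.subgroupOf_eq_top] at h
    refine ⟨?_, le_antisymm hHA h⟩
    rintro ⟨-, -, hN', E, hE⟩
    have hmk : Function.Surjective (QuotientGroup.mk' ((Inn P).subgroupOf (F.autGroup P))) :=
      QuotientGroup.mk'_surjective _
    apply kGeneratedCore_ne_top_of_stronglyPEmbedded (R.mapSurjective hmk) hE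
    rw [eq_top_iff]
    rintro a -
    obtain ⟨α, rfl⟩ := hmk a
    have hHK : H ≤ ((kGeneratedCore p 1
        ((R.mapSurjective hmk : Sylow p (F.autGroup P ⧸ (Inn P).subgroupOf (F.autGroup P))) :
          Subgroup (F.autGroup P ⧸ (Inn P).subgroupOf (F.autGroup P)))).comap
        (QuotientGroup.mk' ((Inn P).subgroupOf (F.autGroup P)))).map (F.autGroup P).subtype := by
      rw [hH, Subgroup.closure_le]
      rintro β ⟨Q, hPQ, φ, hφ, hφβ⟩
      have hβA : β ∈ F.autGroup P :=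
        hHA (by rw [hH]; exact Subgroup.subset_closure ⟨Q, hPQ, φ, hφ, hφβ⟩)
      refine ⟨⟨β, hβA⟩, ?_, rfl⟩
      rw [SetLike.mem_coe, Subgroup.mem_comap]
      have hQS : Q ≤ S := hom_le F hφ
      have hfinQ : Finite Q := finite_of_le hQS
      obtain ⟨g, hg, hgP⟩ :=
        exists_mem_normalizerIn_not_mem (S := Q) (hS.to_le hQS) hPQ.le hPQ.ne
      have hgQ : g ∈ Q := (mem_normalizerIn.1 hg).1
      have hgN : g ∈ normalizerIn S P := ⟨hQS hgQ, (Subgroup.mem_inf.1 hg).2⟩
      have hcgA : conjN S P ⟨g, hgN⟩ ∈ F.autGroup P :=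
        autInducedBy_le_autGroup F hPle (by rw [autInducedBy_eq_range]; exact ⟨_, rfl⟩)
      have hτR : (⟨conjN S P ⟨g, hgN⟩, hcgA⟩ : F.autGroup P) ∈ (R : Subgroup (F.autGroup P)) := by
        rw [hR, Subgroup.mem_subgroupOf, autInducedBy_eq_range]; exact ⟨_, rfl⟩
      apply mem_kGeneratedCore_of_conj_mem (R.mapSurjective hmk)
        (t := QuotientGroup.mk' _ ⟨conjN S P ⟨g, hgN⟩, hcgA⟩)
      · rw [Sylow.coe_mapSurjective]; exact ⟨_, hτR, rfl⟩
      · intro h1
        rw [QuotientGroup.mk'_apply, QuotientGroup.eq_one_iff, Subgroup.mem_subgroupOf] at h1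
        exact hgP (hker _ h1)
      · rw [Sylow.coe_mapSurjective]
        refine ⟨⟨β, hβA⟩ * ⟨conjN S P ⟨g, hgN⟩, hcgA⟩ * ⟨β, hβA⟩⁻¹, ?_, by
          rw [map_mul, map_mul, map_inv]⟩
        rw [SetLike.mem_coe, hR, Subgroup.mem_subgroupOf, mem_autInducedBy_iff]
        refine ⟨φ ⟨g, hgQ⟩, hom_mem_S F hφ _, fun y => ?_⟩
        have e1 : ((((⟨β, hβA⟩ * ⟨conjN S P ⟨g, hgN⟩, hcgA⟩ * ⟨β, hβA⟩⁻¹ : F.autGroup P) :
            MulAut P) y : P) : Ω) = ((β (conjN S P ⟨g, hgN⟩ (β⁻¹ y)) : P) : Ω) := rfl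
        rw [e1, ← hφβ]
        have e2 : Subgroup.inclusion hPQ.le (conjN S P ⟨g, hgN⟩ (β⁻¹ y)) =
            ⟨g, hgQ⟩ * Subgroup.inclusion hPQ.le (β⁻¹ y) * ⟨g, hgQ⟩⁻¹ := rfl
        rw [e2, map_mul, map_mul, map_inv, hφβ]
        simp
    have h2 := hHK (h α.2)
    obtain ⟨κ, hκ, hκα⟩ := h2
    have hκe : κ = α := Subtype.ext hκα
    rw [hκe] at hκ
    exact hκ
  · right
    exact ⟨⟨hcen, hPn, hN, _, h⟩, hN, h⟩

end Cfsg.Agent.Lib.Helper84
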