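import Mathlib
import Cfsg.Prelude.Def_FusionSystem
import Cfsg.Agent.Lib.Helper84.PCoreBasic
import Cfsg.Agent.Lib.Helper85.ConsNormal
import Cfsg.Agent.Lib.Helper85.GroupNormalSys
import Cfsg.Agent.Lib.Helper2.Transfer
import Cfsg.Agent.Lib.Helper47.Subn

set_option autoImplicit false
set_option linter.unusedSectionVars false
set_option linter.style.haveILetI false

/-!
# Normal subsystems of the fusion system of a group of characteristic `p`: the group theory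

Abstract data `NData` extracted from a normal subsystem `E` over `T` of `F_S(G)` (the predicate
`EC P g` says that conjugation by `g` on `P` is a map of `E`), and the construction of the normal
subgroup `Hsub = T * O^p(H1)`, where `H1` consists of the elements acting trivially on
`O_p(G) / (O_p(G) ∩ T)` and inducing on `O_p(G) ∩ T` a map of `E`.
-/

namespace Cfsg.Agent.Lib.Helper84
namespace NSub

open Cfsg
open Cfsg.Agent.Lib.Helper85 (IsSylIn)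

variable {G : Type*} [Group G]

/-- the data of a normal subsystem over `T` of the fusion system of `G` on `S`, in terms of the
predicate `EC P g`: conjugation by `g` on `P` is a map of the subsystem. -/
structure NData (p : ℕ) (S T : Subgroup G) (EC : Subgroup G → G → Prop) : Prop where
  hTS : T ≤ S
  sc : ∀ t ∈ T, ∀ g : G, g * t * g⁻¹ ∈ S → g * t * g⁻¹ ∈ T
  ec_le : ∀ {P : Subgroup G} {g : G}, EC P g → P ≤ T
  ec_map : ∀ {P : Subgroup G} {g : G}, EC P g → ∀ x ∈ P, g * x * g⁻¹ ∈ T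
  ec_inner : ∀ {P : Subgroup G} {t : G}, P ≤ T → t ∈ T → EC P t
  ec_mul : ∀ {P Q : Subgroup G} {g h : G}, EC P g → EC Q h → (∀ x ∈ P, g * x * g⁻¹ ∈ Q) →
    EC P (h * g)
  ec_res : ∀ {P R : Subgroup G} {g : G}, EC P g → R ≤ P → EC R g
  ec_inv : ∀ {P Q : Subgroup G} {g : G}, EC P g → (∀ y ∈ Q, g⁻¹ * y * g ∈ P) → EC Q g⁻¹
  ec_congr : ∀ {P : Subgroup G} {g h : G}, EC P g → (∀ x ∈ P, h * x * h⁻¹ = g * x * g⁻¹) → EC P h
  inv : ∀ {P P' : Subgroup G} {g n : G}, (∀ t ∈ T, n * t * n⁻¹ ∈ T) → EC P g →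
    (∀ y ∈ P', n⁻¹ * y * n ∈ P) → EC P' (n * g * n⁻¹)
  frat : ∀ {P : Subgroup G} {g : G}, P ≤ T → (∀ x ∈ P, g * x * g⁻¹ ∈ T) →
    ∃ n : G, (∀ t ∈ T, n * t * n⁻¹ ∈ T) ∧ EC P (n⁻¹ * g)
  ext : ∀ {n : G}, EC T n → ∃ g : G, (∀ t ∈ T, g * t * g⁻¹ = n * t * n⁻¹) ∧
    ∀ c ∈ S ⊓ Subgroup.centralizer (T : Set G),
      c⁻¹ * (g * c * g⁻¹) ∈ T ⊓ Subgroup.centralizer (T : Set G)
  syl : ∀ {P : Subgroup G} {s : G}, (∀ g : G, EC P g → ∀ x ∈ P, g * x * g⁻¹ ∈ P) → s ∈ S →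
    EC P s → ∃ t ∈ T, ∀ x ∈ P, s * x * s⁻¹ = t * x * t⁻¹
  sylT : ∀ {n : G} (k : ℕ), EC T n → (∀ t ∈ T, n ^ (p ^ k) * t = t * n ^ (p ^ k)) →
    ∃ t₀ ∈ T, ∀ t ∈ T, n * t * n⁻¹ = t₀ * t * t₀⁻¹
  recp : ∀ {P : Subgroup G} {n : G}, (∀ g : G, EC P g → ∀ x ∈ P, g * x * g⁻¹ ∈ P) →
    (∀ t ∈ T, n * t * n⁻¹ ∈ T) → EC P n → ∃ m : G, EC T m ∧ ∀ x ∈ P, m * x * m⁻¹ = n * x * n⁻¹

theorem pCore_normal (p : ℕ) (G : Type*) [Group G] : (pCore p G).Normal :=
  Subgroup.sSup_normal _ (fun _ h => h.1)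

section

variable [Finite G] {p : ℕ} [Fact p.Prime] {S : Sylow p G} {T : Subgroup G}
  {EC : Subgroup G → G → Prop}

theorem conj_mem_T_of_S (d : NData p (S : Subgroup G) T EC) {s t : G} (hs : s ∈ S) (ht : t ∈ T) :
    s * t * s⁻¹ ∈ T :=
  d.sc t ht s (Subgroup.mul_mem _ (Subgroup.mul_mem _ hs (d.hTS ht)) (Subgroup.inv_mem _ hs))

theorem QT_normal (d : NData p (S : Subgroup G) T EC) : (T ⊓ pCore p G).Normal := by
  have hQ := pCore_normal p G
  constructor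
  intro x hx g
  have hq : g * x * g⁻¹ ∈ pCore p G := hQ.conj_mem x hx.2 g
  exact ⟨d.sc x hx.1 g (pCore_le_sylow p S hq), hq⟩

/-- the elements acting trivially on `O_p(G) / (T ∩ O_p(G))`. -/
def Csub (d : NData p (S : Subgroup G) T EC) : Subgroup G where
  carrier := {g | ∀ q ∈ pCore p G, g * q * g⁻¹ * q⁻¹ ∈ T ⊓ pCore p G}
  one_mem' := by
    intro q _
    have : (1 : G) * q * (1 : G)⁻¹ * q⁻¹ = 1 := by group
    rw [this]
    exact Subgroup.one_mem _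
  mul_mem' := by
    intro a b ha hb q hq
    have hT := QT_normal d
    have h1 : a * (b * q * b⁻¹ * q⁻¹) * a⁻¹ ∈ T ⊓ pCore p G := hT.conj_mem _ (hb q hq) a
    have h2 := Subgroup.mul_mem _ h1 (ha q hq)
    have h3 : a * (b * q * b⁻¹ * q⁻¹) * a⁻¹ * (a * q * a⁻¹ * q⁻¹) = a * b * q * (a * b)⁻¹ * q⁻¹ := by
      group
    rwa [h3] at h2
  inv_mem' := by
    intro a ha q hq
    have hQ := pCore_normal p G
    have hq' : a⁻¹ * q * a ∈ pCore p G := by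
      have := hQ.conj_mem _ hq a⁻¹
      simpa using this
    have h1 := Subgroup.inv_mem _ (ha _ hq')
    have h2 : (a * (a⁻¹ * q * a) * a⁻¹ * (a⁻¹ * q * a)⁻¹)⁻¹ = a⁻¹ * q * a⁻¹⁻¹ * q⁻¹ := by
      group
    rwa [h2] at h1

theorem mem_Csub (d : NData p (S : Subgroup G) T EC) {g : G} :
    g ∈ Csub d ↔ ∀ q ∈ pCore p G, g * q * g⁻¹ * q⁻¹ ∈ T ⊓ pCore p G := Iff.rfl

theorem Csub_normal (d : NData p (S : Subgroup G) T EC) : (Csub d).Normal := by
  have hQ := pCore_normal p G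
  have hT := QT_normal d
  constructor
  intro g hg h q hq
  have hq' : h⁻¹ * q * h ∈ pCore p G := by
    have := hQ.conj_mem _ hq h⁻¹
    simpa using this
  have h1 := hT.conj_mem _ (hg _ hq') h
  have h2 : h * (g * (h⁻¹ * q * h) * g⁻¹ * (h⁻¹ * q * h)⁻¹) * h⁻¹
      = h * g * h⁻¹ * q * (h * g * h⁻¹)⁻¹ * q⁻¹ := by group
  rwa [h2] at h1

/-- the elements inducing on `T ∩ O_p(G)` a map of the subsystem. -/
def Lsub (d : NData p (S : Subgroup G) T EC) : Subgroup G where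
  carrier := {g | EC (T ⊓ pCore p G) g}
  one_mem' := d.ec_inner inf_le_left (Subgroup.one_mem _)
  mul_mem' := by
    intro a b ha hb
    exact d.ec_mul hb ha (fun x hx => (QT_normal d).conj_mem x hx b)
  inv_mem' := by
    intro a ha
    refine d.ec_inv ha (fun y hy => ?_)
    have := (QT_normal d).conj_mem y hy a⁻¹
    simpa using this

theorem mem_Lsub (d : NData p (S : Subgroup G) T EC) {g : G} :
    g ∈ Lsub d ↔ EC (T ⊓ pCore p G) g := Iff.rfl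

theorem Lsub_normal (d : NData p (S : Subgroup G) T EC) : (Lsub d).Normal := by
  have hN := QT_normal d
  constructor
  intro l hl g
  obtain ⟨n, hn, hnl⟩ := d.frat (P := T ⊓ pCore p G) (g := g) inf_le_left
    (fun x hx => (hN.conj_mem x hx g).1)
  have hl' : n⁻¹ * g ∈ Lsub d := hnl
  have h1 : (n⁻¹ * g) * l * (n⁻¹ * g)⁻¹ ∈ Lsub d :=
    Subgroup.mul_mem _ (Subgroup.mul_mem _ hl' hl) (Subgroup.inv_mem _ hl')
  have h2 := d.inv (P := T ⊓ pCore p G) (P' := T ⊓ pCore p G) hn h1 (fun y hy => by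
    have := hN.conj_mem y hy n⁻¹
    simpa using this)
  have e : n * ((n⁻¹ * g) * l * (n⁻¹ * g)⁻¹) * n⁻¹ = g * l * g⁻¹ := by group
  rw [e] at h2
  exact h2

/-- `H1`: trivial action on `O_p(G)/(T ∩ O_p(G))` and action on `T ∩ O_p(G)` in the subsystem. -/
def H1 (d : NData p (S : Subgroup G) T EC) : Subgroup G := Lsub d ⊓ Csub d

theorem H1_normal (d : NData p (S : Subgroup G) T EC) : (H1 d).Normal := by
  have h1 := Lsub_normal d
  have h2 := Csub_normal d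
  exact Subgroup.normal_inf_normal _ _

theorem T_le_H1 (d : NData p (S : Subgroup G) T EC) : T ≤ H1 d := by
  intro t ht
  refine ⟨d.ec_inner inf_le_left ht, fun q hq => ?_⟩
  have hQ := pCore_normal p G
  refine ⟨?_, ?_⟩
  · have h1 : q * t⁻¹ * q⁻¹ ∈ T := conj_mem_T_of_S d (pCore_le_sylow p S hq) (T.inv_mem ht)
    have h2 := T.mul_mem ht h1
    have e : t * (q * t⁻¹ * q⁻¹) = t * q * t⁻¹ * q⁻¹ := by group
    rwa [e] at h2
  · exact Subgroup.mul_mem _ (hQ.conj_mem q hq t) (Subgroup.inv_mem _ hq)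

/-- elements centralizing `T ∩ O_p(G)` and `O_p(G)/(T ∩ O_p(G))` lie in `O_p(G)`. -/
theorem mem_pCore_of_D (hG : Subgroup.centralizer ((pCore p G : Subgroup G) : Set G) ≤ pCore p G)
    (d : NData p (S : Subgroup G) T EC) {g : G} (hg : g ∈ Csub d)
    (hc : ∀ x ∈ T ⊓ pCore p G, g * x = x * g) : g ∈ pCore p G := by
  haveI := QT_normal d
  exact Helper85.ConsNormal.mem_pCore_of_stabilizes hG (T ⊓ pCore p G) inf_le_right hg hc

/-- `S ∩ H1 = T D`. -/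
theorem exists_T_mul_D (d : NData p (S : Subgroup G) T EC) {s : G} (hsS : s ∈ S) (hs : s ∈ H1 d) :
    ∃ t ∈ T, t⁻¹ * s ∈ Csub d ∧ ∀ x ∈ T ⊓ pCore p G, (t⁻¹ * s) * x = x * (t⁻¹ * s) := by
  have hN := QT_normal d
  have hwc : ∀ g : G, EC (T ⊓ pCore p G) g → ∀ x ∈ T ⊓ pCore p G,
      g * x * g⁻¹ ∈ T ⊓ pCore p G := fun g _ x hx => hN.conj_mem x hx g
  obtain ⟨t, ht, hts⟩ := d.syl hwc hsS hs.1
  refine ⟨t, ht, Subgroup.mul_mem _ (Subgroup.inv_mem _ (T_le_H1 d ht).2) hs.2, fun x hx => ?_⟩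
  have h1 := hts x hx
  calc t⁻¹ * s * x = t⁻¹ * (s * x * s⁻¹) * s := by group
    _ = t⁻¹ * (t * x * t⁻¹) * s := by rw [h1]
    _ = x * (t⁻¹ * s) := by group

/-- the focal subgroup of `H1` on `S ∩ H1` lies in `T`. -/
theorem focal_mem (hG : Subgroup.centralizer ((pCore p G : Subgroup G) : Set G) ≤ pCore p G)
    (d : NData p (S : Subgroup G) T EC) {x g : G} (hxS : x ∈ S) (hx : x ∈ H1 d) (hg : g ∈ H1 d)
    (hgx : g * x * g⁻¹ ∈ S) : x⁻¹ * (g * x * g⁻¹) ∈ T := by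
  have hQ := pCore_normal p G
  obtain ⟨t, ht, hd1, hd2⟩ := exists_T_mul_D d hxS hx
  have hdQ : t⁻¹ * x ∈ pCore p G := mem_pCore_of_D hG d hd1 hd2
  have hdS : t⁻¹ * x ∈ S := pCore_le_sylow p S hdQ
  have h1 : g * (t⁻¹ * x) * g⁻¹ ∈ pCore p G := hQ.conj_mem _ hdQ g
  have h2 : g * t * g⁻¹ ∈ S := by
    have e : g * t * g⁻¹ = (g * x * g⁻¹) * (g * (t⁻¹ * x) * g⁻¹)⁻¹ := by group
    rw [e]
    exact Subgroup.mul_mem _ hgx (Subgroup.inv_mem _ (pCore_le_sylow p S h1))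
  have h3 : g * t * g⁻¹ ∈ T := d.sc t ht g h2
  have h4 := hg.2 _ hdQ
  have e : x⁻¹ * (g * x * g⁻¹) = (t⁻¹ * x)⁻¹ * (t⁻¹ * (g * t * g⁻¹)) * (t⁻¹ * x)⁻¹⁻¹ *
      ((t⁻¹ * x)⁻¹ * (g * (t⁻¹ * x) * g⁻¹ * (t⁻¹ * x)⁻¹) * (t⁻¹ * x)⁻¹⁻¹) := by group
  rw [e]
  exact T.mul_mem (conj_mem_T_of_S d (Subgroup.inv_mem _ hdS) (T.mul_mem (T.inv_mem ht) h3))
    (conj_mem_T_of_S d (Subgroup.inv_mem _ hdS) h4.1)

theorem isSylIn_H1 (d : NData p (S : Subgroup G) T EC) :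
    IsSylIn p ((S : Subgroup G) ⊓ H1 d) (H1 d) := by
  haveI := H1_normal d
  refine (Helper85.isSylIn_of_sylow S le_top).inf_of_le_normalizer le_top le_top ?_
  rw [Subgroup.normalizer_eq_top]

/-- `O^p(H1)`, inside `G`. -/
def Rsub (d : NData p (S : Subgroup G) T EC) : Subgroup G :=
  (pResidual p ↥(H1 d)).map (H1 d).subtype

theorem Rsub_le (d : NData p (S : Subgroup G) T EC) : Rsub d ≤ H1 d :=
  Helper47.pResidual_map_subtype_le p _

theorem Rsub_normal (d : NData p (S : Subgroup G) T EC) : (Rsub d).Normal := by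
  haveI := H1_normal d
  have h := Helper47.normalizer_le_normalizer_pResidual_map p (H1 d)
  rw [Subgroup.normalizer_eq_top] at h
  exact Subgroup.normalizer_eq_top_iff.mp (top_le_iff.mp h)

theorem mem_Rsub (d : NData p (S : Subgroup G) T EC) {x : G} (hx : x ∈ H1 d)
    (hc : (orderOf x).Coprime p) : x ∈ Rsub d := by
  unfold Rsub
  rw [Helper47.pResidual_map_subtype_eq]
  exact Subgroup.subset_closure ⟨hx, hc⟩

theorem Rsub_le_of_forall (d : NData p (S : Subgroup G) T EC) (N : Subgroup G)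
    (h : ∀ x ∈ H1 d, (orderOf x).Coprime p → x ∈ N) : Rsub d ≤ N := by
  unfold Rsub
  rw [Helper47.pResidual_map_subtype_eq, Subgroup.closure_le]
  rintro x ⟨hxB, hxc⟩
  exact h x hxB hxc

end

end NSub
end Cfsg.Agent.Lib.Helper84
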