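import Mathlib
import Cfsg.Agent.Lib.Helper84.NSub1

set_option autoImplicit false
set_option linter.unusedSectionVars false
set_option linter.style.haveILetI false

/-!
# Normal subsystems of the fusion system of a group of characteristic `p`: the subgroup `Hsub`

`Hsub = T * O^p(H1)` is normal in `G`, meets `S` in `T`, and `H1 = Hsub * D`.
-/

namespace Cfsg.Agent.Lib.Helper84
namespace NSub

open Cfsg
open Cfsg.Agent.Lib.Helper85 (IsSylIn)
open scoped commutatorElement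

variable {G : Type*} [Group G] [Finite G] {p : ℕ} [Fact p.Prime] {S : Sylow p G} {T : Subgroup G}
  {EC : Subgroup G → G → Prop}

/-- `S ∩ O^p(H1) ≤ T`, by the focal subgroup theorem. -/
theorem S_inf_R_le_T (hG : Subgroup.centralizer ((pCore p G : Subgroup G) : Set G) ≤ pCore p G)
    (d : NData p (S : Subgroup G) T EC) : (S : Subgroup G) ⊓ Rsub d ≤ T := by
  obtain ⟨P, hP⟩ := isSylIn_H1 d
  rintro r ⟨hrS, hrR⟩
  obtain ⟨r', hr', rfl⟩ := hrR
  have h1 : r' ∈ (P : Subgroup (H1 d)) := by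
    rw [hP]
    exact Subgroup.mem_subgroupOf.mpr ⟨hrS, r'.2⟩
  have h2 : pResidual p ↥(H1 d) ≤ (P : Subgroup (H1 d)).transferFocal.ker :=
    Helper2.pResidual_le_ker p _ (P.2.to_quotient _)
  have h3 : r' ∈ (P : Subgroup (H1 d)).focalSubgroup := by
    rw [← Subgroup.ker_transferFocal_inf_eq_focalSubgroup P]
    exact ⟨h2 hr', h1⟩
  have h4 : (P : Subgroup (H1 d)).focalSubgroup ≤ T.subgroupOf (H1 d) := by
    rw [Subgroup.focalSubgroup_def, Subgroup.closure_le]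
    rintro g ⟨hg, x, hx, u, rfl⟩
    rw [hP, Subgroup.mem_subgroupOf] at hg hx
    rw [SetLike.mem_coe, Subgroup.mem_subgroupOf]
    have hxS : (x : G) ∈ S := hx.1
    have hcS : ((⁅x, u⁆ : H1 d) : G) ∈ S := hg.1
    have e1 : ((⁅x, u⁆ : H1 d) : G) = (x : G) * ((u : G) * (x : G)⁻¹ * (u : G)⁻¹) := by
      rw [commutatorElement_def]
      simp [mul_assoc]
    have h5 : (u : G) * (x : G)⁻¹ * (u : G)⁻¹ ∈ S := by
      have h5' := Subgroup.mul_mem _ (Subgroup.inv_mem _ hxS) hcS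
      rw [e1] at h5'
      have e2 : (x : G)⁻¹ * ((x : G) * ((u : G) * (x : G)⁻¹ * (u : G)⁻¹)) =
          (u : G) * (x : G)⁻¹ * (u : G)⁻¹ := by group
      rw [e2] at h5'
      exact h5'
    have h6 := focal_mem hG d (Subgroup.inv_mem _ hxS) (Subgroup.inv_mem _ x.2) u.2 h5
    rw [e1]
    simpa using h6
  exact Subgroup.mem_subgroupOf.mp (h4 h3)

/-- `H1 = (S ∩ H1) O^p(H1)`. -/
theorem H1_le_sup (d : NData p (S : Subgroup G) T EC) :
    H1 d ≤ ((S : Subgroup G) ⊓ H1 d) ⊔ Rsub d := by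
  obtain ⟨P, hP⟩ := isSylIn_H1 d
  haveI := Helper2.pResidual_normal (G := ↥(H1 d)) p
  have h := Helper2.sylow_sup_eq_top P (pResidual p ↥(H1 d)) le_rfl
  intro g hg
  have hg' : (⟨g, hg⟩ : H1 d) ∈ (P : Subgroup (H1 d)) ⊔ pResidual p ↥(H1 d) := by
    rw [h]
    trivial
  have h1 := Subgroup.mem_map_of_mem (H1 d).subtype hg'
  rw [Subgroup.map_sup, hP, Subgroup.subgroupOf_map_subtype] at h1
  exact (sup_le_sup_right (inf_le_left : (S : Subgroup G) ⊓ H1 d ⊓ H1 d ≤ (S : Subgroup G) ⊓ H1 d)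
    (Rsub d)) h1

/-- the normal subgroup attached to the subsystem. -/
def Hsub (d : NData p (S : Subgroup G) T EC) : Subgroup G := T ⊔ Rsub d

theorem T_le_Hsub (d : NData p (S : Subgroup G) T EC) : T ≤ Hsub d := le_sup_left

theorem Rsub_le_Hsub (d : NData p (S : Subgroup G) T EC) : Rsub d ≤ Hsub d := le_sup_right

theorem Hsub_le_H1 (d : NData p (S : Subgroup G) T EC) : Hsub d ≤ H1 d :=
  sup_le (T_le_H1 d) (Rsub_le d)

theorem Hsub_normal (d : NData p (S : Subgroup G) T EC) : (Hsub d).Normal := by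
  have hR := Rsub_normal d
  haveI hH1 := H1_normal d
  have key : ∀ g : G, (∀ t ∈ T, g * t * g⁻¹ ∈ T) →
      g ∈ Subgroup.normalizer ((Hsub d : Subgroup G) : Set G) := by
    intro g hg
    apply Helper85.mem_normalizer_of_conj_mem
    intro y hy
    have h1 : (Hsub d).map (MulAut.conj g).toMonoidHom ≤ Hsub d := by
      unfold Hsub
      rw [Subgroup.map_sup]
      apply sup_le_sup
      · rintro _ ⟨t, ht, rfl⟩
        exact hg t ht
      · rintro _ ⟨r, hr, rfl⟩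
        exact hR.conj_mem r hr g
    exact h1 ⟨y, hy, rfl⟩
  have hS1 : (S : Subgroup G) ⊓ H1 d ≤ Subgroup.normalizer ((Hsub d : Subgroup G) : Set G) :=
    fun s hs => key s (fun t ht => conj_mem_T_of_S d hs.1 ht)
  have hRn : Rsub d ≤ Subgroup.normalizer ((Hsub d : Subgroup G) : Set G) :=
    le_trans le_sup_right Subgroup.le_normalizer
  have hH1n : H1 d ≤ Subgroup.normalizer ((Hsub d : Subgroup G) : Set G) :=
    (H1_le_sup d).trans (sup_le hS1 hRn)
  obtain ⟨P, hP⟩ := isSylIn_H1 d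
  have hfr := Sylow.normalizer_sup_eq_top P
  rw [hP, Subgroup.subgroupOf_map_subtype] at hfr
  have hNS : Subgroup.normalizer (((S : Subgroup G) ⊓ H1 d ⊓ H1 d : Subgroup G) : Set G) ≤
      Subgroup.normalizer ((Hsub d : Subgroup G) : Set G) := by
    intro n hn
    apply key
    intro t ht
    have ht1 : t ∈ ((S : Subgroup G) ⊓ H1 d ⊓ H1 d : Subgroup G) :=
      ⟨⟨d.hTS ht, T_le_H1 d ht⟩, T_le_H1 d ht⟩
    have h1 := (Subgroup.mem_normalizer_iff.mp hn t).mp ht1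
    exact d.sc t ht n h1.1.1
  have htop : (⊤ : Subgroup G) ≤ Subgroup.normalizer ((Hsub d : Subgroup G) : Set G) := by
    rw [← hfr]
    exact sup_le hNS hH1n
  exact Subgroup.normalizer_eq_top_iff.mp (top_le_iff.mp htop)

theorem Hsub_inf_S_le (hG : Subgroup.centralizer ((pCore p G : Subgroup G) : Set G) ≤ pCore p G)
    (d : NData p (S : Subgroup G) T EC) : Hsub d ⊓ (S : Subgroup G) ≤ T := by
  haveI := Rsub_normal d
  rintro x ⟨hxH, hxS⟩
  have hx' : x ∈ ((T ⊔ Rsub d : Subgroup G) : Set G) := hxH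
  rw [Subgroup.mul_normal] at hx'
  obtain ⟨t, ht, r, hr, rfl⟩ := hx'
  have hrS : r ∈ (S : Subgroup G) := by
    have h1 := Subgroup.mul_mem _ (Subgroup.inv_mem _ (d.hTS ht)) hxS
    have e2 : t⁻¹ * (t * r) = r := by group
    rw [e2] at h1
    exact h1
  exact T.mul_mem ht (S_inf_R_le_T hG d ⟨hrS, hr⟩)

theorem isSylIn_Hsub (hG : Subgroup.centralizer ((pCore p G : Subgroup G) : Set G) ≤ pCore p G)
    (d : NData p (S : Subgroup G) T EC) : IsSylIn p T (Hsub d) := by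
  haveI := Hsub_normal d
  have h : IsSylIn p ((S : Subgroup G) ⊓ Hsub d) (Hsub d) := by
    refine (Helper85.isSylIn_of_sylow S le_top).inf_of_le_normalizer le_top le_top ?_
    rw [Subgroup.normalizer_eq_top]
  have e : (S : Subgroup G) ⊓ Hsub d = T :=
    le_antisymm (by rw [inf_comm]; exact Hsub_inf_S_le hG d) (le_inf d.hTS le_sup_left)
  exact h.of_eq_left e

/-- `C_H(T ∩ O_p(G)) ≤ T ∩ O_p(G)`. -/
theorem Hsub_cent (hG : Subgroup.centralizer ((pCore p G : Subgroup G) : Set G) ≤ pCore p G)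
    (d : NData p (S : Subgroup G) T EC) {h : G} (hh : h ∈ Hsub d)
    (hc : ∀ x ∈ T ⊓ pCore p G, h * x = x * h) : h ∈ T ⊓ pCore p G := by
  have h1 : h ∈ pCore p G := mem_pCore_of_D hG d (Hsub_le_H1 d hh).2 hc
  exact ⟨Hsub_inf_S_le hG d ⟨hh, pCore_le_sylow p S h1⟩, h1⟩

/-- `C_T(T ∩ O_p(G)) ≤ T ∩ O_p(G)`. -/
theorem T_cent (hG : Subgroup.centralizer ((pCore p G : Subgroup G) : Set G) ≤ pCore p G)
    (d : NData p (S : Subgroup G) T EC) {h : G} (hh : h ∈ T)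
    (hc : ∀ x ∈ T ⊓ pCore p G, h * x = x * h) : h ∈ T ⊓ pCore p G :=
  ⟨hh, mem_pCore_of_D hG d (T_le_H1 d hh).2 hc⟩

/-- `H1 = Hsub * D`. -/
theorem H1_exists (d : NData p (S : Subgroup G) T EC) {g : G} (hg : g ∈ H1 d) :
    ∃ h ∈ Hsub d, ∃ c : G, g = h * c ∧ c ∈ Csub d ∧ ∀ x ∈ T ⊓ pCore p G, c * x = x * c := by
  haveI hR := Rsub_normal d
  have h1 := H1_le_sup d hg
  have h2 : g ∈ ((((S : Subgroup G) ⊓ H1 d) ⊔ Rsub d : Subgroup G) : Set G) := h1
  rw [Subgroup.mul_normal] at h2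
  obtain ⟨s, hs, r, hr, rfl⟩ := h2
  obtain ⟨t, ht, hd1, hd2⟩ := exists_T_mul_D d hs.1 hs.2
  refine ⟨t * ((t⁻¹ * s) * r * (t⁻¹ * s)⁻¹), ?_, t⁻¹ * s, by group, hd1, hd2⟩
  exact Subgroup.mul_mem _ (T_le_Hsub d ht) (Rsub_le_Hsub d (hR.conj_mem r hr _))

end NSub
end Cfsg.Agent.Lib.Helper84
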