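import Mathlib
import Cfsg.Agent.Lib.Helper84.NSub2
import Cfsg.Agent.Lib.Helper84.Gruen

set_option autoImplicit false
set_option linter.unusedSectionVars false
set_option linter.style.haveILetI false

/-!
# Normal subsystems of the fusion system of a group of characteristic `p`: automorphisms

Every automorphism of `T` in the subsystem is induced by an element of `H1`; the elements inducing
on `T ∩ O_p(G)` a map of the subsystem lie in `Hsub * C_G(T ∩ O_p(G))`; decompositions of the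
automorphisms of overgroups of `T ∩ O_p(G)` in the subsystem and in `F_T(Hsub)`.
-/

namespace Cfsg.Agent.Lib.Helper84
namespace NSub

open Cfsg
open Cfsg.Agent.Lib.Helper85 (IsSylIn)
open scoped commutatorElement

section gen

variable {M : Type*} [Group M]

/-- decomposition of an element into a `p'`-part and a `p`-part, both powers of it. -/
theorem exists_pow_decomp [Finite M] (p : ℕ) [Fact p.Prime] (n : M) :
    ∃ a b k : ℕ, n = n ^ a * n ^ b ∧ (orderOf (n ^ a)).Coprime p ∧ (n ^ b) ^ (p ^ k) = 1 := by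
  have hp : p.Prime := Fact.out
  have hpos : orderOf n ≠ 0 := (orderOf_pos n).ne'
  obtain ⟨e, m, hm, hnm⟩ := Nat.exists_eq_pow_mul_and_not_dvd hpos p hp.ne_one
  have hmp : Nat.Coprime m p := ((Nat.Prime.coprime_iff_not_dvd hp).2 hm).symm
  have co : Nat.Coprime (p ^ e) m := Nat.Coprime.pow_left e hmp.symm
  obtain ⟨a, ha1, ha2⟩ := Nat.chineseRemainder co 0 1
  obtain ⟨b, hb1, hb2⟩ := Nat.chineseRemainder co 1 0
  refine ⟨a, b, e, ?_, ?_, ?_⟩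
  · have h1 : a + b ≡ 1 [MOD p ^ e * m] := by
      rw [← Nat.modEq_and_modEq_iff_modEq_mul co]
      exact ⟨by simpa using ha1.add hb1, by simpa using ha2.add hb2⟩
    rw [← pow_add]
    conv_lhs => rw [← pow_one n]
    rw [pow_eq_pow_iff_modEq, hnm]
    exact h1.symm
  · have h1 : (n ^ a) ^ m = 1 := by
      rw [← pow_mul]
      apply orderOf_dvd_iff_pow_eq_one.mp
      rw [hnm]
      exact Nat.mul_dvd_mul_right ((Nat.modEq_zero_iff_dvd).1 ha1) m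
    exact Nat.Coprime.coprime_dvd_left (orderOf_dvd_of_pow_eq_one h1) hmp
  · rw [← pow_mul]
    apply orderOf_dvd_iff_pow_eq_one.mp
    rw [hnm, mul_comm b]
    exact Nat.mul_dvd_mul_left _ ((Nat.modEq_zero_iff_dvd).1 hb2)

theorem conj_pow_eq {x y a : M} (h1 : x * y * x⁻¹ = a * y) (h2 : x * a = a * x) (k : ℕ) :
    x ^ k * y * (x ^ k)⁻¹ = a ^ k * y := by
  induction k with
  | zero => simp
  | succ k ih =>
    have h3 : x * a ^ k = a ^ k * x := (Commute.pow_right (show Commute x a from h2) k).eq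
    calc x ^ (k + 1) * y * (x ^ (k + 1))⁻¹ = x * (x ^ k * y * (x ^ k)⁻¹) * x⁻¹ := by
          rw [pow_succ']; group
      _ = x * (a ^ k * y) * x⁻¹ := by rw [ih]
      _ = (x * a ^ k) * (x⁻¹ * (x * y * x⁻¹) * x) * x⁻¹ := by group
      _ = (a ^ k * x) * (x⁻¹ * (a * y) * x) * x⁻¹ := by rw [h3, h1]
      _ = a ^ k * (x * y * x⁻¹) := by rw [← h1]; group
      _ = a ^ (k + 1) * y := by rw [h1, pow_succ]; group

theorem conj_mem_center_of_normalizes {T : Subgroup M} {g : M} (hgT : ∀ t ∈ T, g * t * g⁻¹ ∈ T)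
    (hgT' : ∀ t ∈ T, g⁻¹ * t * g ∈ T) {z : M} (hz : z ∈ T ⊓ Subgroup.centralizer (T : Set M)) :
    g * z * g⁻¹ ∈ T ⊓ Subgroup.centralizer (T : Set M) := by
  refine Subgroup.mem_inf.mpr ⟨hgT z hz.1, ?_⟩
  rw [Subgroup.mem_centralizer_iff]
  intro t ht
  have h1 := (Subgroup.mem_centralizer_iff.mp hz.2) (g⁻¹ * t * g) (hgT' t ht)
  calc t * (g * z * g⁻¹) = g * ((g⁻¹ * t * g) * z) * g⁻¹ := by group
    _ = g * (z * (g⁻¹ * t * g)) * g⁻¹ := by rw [h1]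
    _ = g * z * g⁻¹ * t := by group

theorem pc_pow {S T : Subgroup M} {g : M} (hgT : ∀ t ∈ T, g * t * g⁻¹ ∈ T)
    (hgT' : ∀ t ∈ T, g⁻¹ * t * g ∈ T)
    (hg : ∀ c ∈ S ⊓ Subgroup.centralizer (T : Set M),
      c⁻¹ * (g * c * g⁻¹) ∈ T ⊓ Subgroup.centralizer (T : Set M)) (k : ℕ) :
    ∀ c ∈ S ⊓ Subgroup.centralizer (T : Set M),
      c⁻¹ * (g ^ k * c * (g ^ k)⁻¹) ∈ T ⊓ Subgroup.centralizer (T : Set M) := by
  induction k with
  | zero =>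
    intro c _
    have : c⁻¹ * (g ^ 0 * c * (g ^ 0)⁻¹) = 1 := by simp
    rw [this]
    exact Subgroup.one_mem _
  | succ k ih =>
    intro c hc
    have h1 := ih c hc
    have h2 := conj_mem_center_of_normalizes hgT hgT' h1
    have h3 := Subgroup.mul_mem _ (hg c hc) h2
    have e : c⁻¹ * (g * c * g⁻¹) * (g * (c⁻¹ * (g ^ k * c * (g ^ k)⁻¹)) * g⁻¹) =
        c⁻¹ * (g ^ (k + 1) * c * (g ^ (k + 1))⁻¹) := by
      rw [pow_succ']; group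
    rwa [e] at h3

end gen

variable {G : Type*} [Group G] [Finite G] {p : ℕ} [Fact p.Prime] {S : Sylow p G} {T : Subgroup G}
  {EC : Subgroup G → G → Prop}

theorem ect_pow (d : NData p (S : Subgroup G) T EC) {n : G} (hn : EC T n) (k : ℕ) :
    EC T (n ^ k) := by
  induction k with
  | zero =>
    rw [pow_zero]
    exact d.ec_inner le_rfl (Subgroup.one_mem _)
  | succ k ih =>
    rw [pow_succ]
    exact d.ec_mul hn ih (fun x hx => d.ec_map hn x hx)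

theorem ect_normalizer (d : NData p (S : Subgroup G) T EC) {n : G} (hn : EC T n) :
    n ∈ Subgroup.normalizer (T : Set G) :=
  Helper85.mem_normalizer_of_conj_mem (fun y hy => d.ec_map hn y hy)

theorem ect_inv (d : NData p (S : Subgroup G) T EC) {n : G} (hn : EC T n) : EC T n⁻¹ := by
  refine d.ec_inv hn (fun y hy => ?_)
  have h := (Subgroup.mem_normalizer_iff.mp (Subgroup.inv_mem _ (ect_normalizer d hn)) y).mp hy
  simpa using h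

theorem inv_conj_mem_of_normalizer {N : Subgroup G} {n : G} (hn : n ∈ Subgroup.normalizer (N : Set G))
    {y : G} (hy : y ∈ N) : n⁻¹ * y * n ∈ N := by
  have h := (Subgroup.mem_normalizer_iff.mp (Subgroup.inv_mem _ hn) y).mp hy
  simpa using h

/-- a `p'`-element inducing on `T` a map of the subsystem acts on `T` like an element of `H1`. -/
theorem exists_H1_of_pprime (d : NData p (S : Subgroup G) T EC) {n : G} (hn : EC T n)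
    (hcop : (orderOf n).Coprime p) : ∃ g ∈ H1 d, ∀ t ∈ T, g * t * g⁻¹ = n * t * n⁻¹ := by
  have hQ := pCore_normal p G
  obtain ⟨g₀, hg₀, hPc⟩ := d.ext hn
  have hnN := ect_normalizer d hn
  have hg₀EC : EC T g₀ := d.ec_congr hn hg₀
  have hg₀N := ect_normalizer d hg₀EC
  obtain ⟨α, hα⟩ := Helper85.exists_mulAut_conj hnN
  have hαg : ∀ x : T, ((α x : T) : G) = g₀ * x * g₀⁻¹ := fun x => (hα x).trans (hg₀ x x.2).symm
  have hαord : (orderOf α).Coprime p := by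
    have h1 : α ^ orderOf n = 1 := by
      ext x
      have h2 := aut_pow_apply α n hα (orderOf n) x
      rw [pow_orderOf_eq_one] at h2
      simpa using h2
    exact Nat.Coprime.coprime_dvd_left (orderOf_dvd_of_pow_eq_one h1) hcop
  obtain ⟨k, hk, hkα⟩ := exists_pprime_pow_lift α hαord g₀ hαg
  have hgT : ∀ t ∈ T, g₀ ^ k * t * (g₀ ^ k)⁻¹ = n * t * n⁻¹ :=
    fun t ht => (hkα ⟨t, ht⟩).symm.trans (hα ⟨t, ht⟩)
  have hgEC : EC T (g₀ ^ k) := d.ec_congr hn hgT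
  have hgN := ect_normalizer d hgEC
  have hgPc := pc_pow (S := (S : Subgroup G)) (fun t ht => d.ec_map hg₀EC t ht)
    (fun t ht => inv_conj_mem_of_normalizer hg₀N ht) hPc k
  refine ⟨g₀ ^ k, ⟨d.ec_res hgEC inf_le_left, ?_⟩, hgT⟩
  intro q hq
  have haQ : g₀ ^ k * q * (g₀ ^ k)⁻¹ * q⁻¹ ∈ pCore p G :=
    Subgroup.mul_mem _ (hQ.conj_mem q hq _) (Subgroup.inv_mem _ hq)
  have hqS : q ∈ (S : Subgroup G) := pCore_le_sylow p S hq
  have haEC : EC T (g₀ ^ k * q * (g₀ ^ k)⁻¹ * q⁻¹) := by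
    have h1 : EC T (q * (g₀ ^ k)⁻¹ * q⁻¹) :=
      d.inv (fun t ht => conj_mem_T_of_S d hqS ht) (ect_inv d hgEC)
        (fun y hy => by
          have := conj_mem_T_of_S d (Subgroup.inv_mem _ hqS) hy
          simpa using this)
    have h2 := d.ec_mul h1 hgEC (fun x hx => d.ec_map h1 x hx)
    have e : g₀ ^ k * (q * (g₀ ^ k)⁻¹ * q⁻¹) = g₀ ^ k * q * (g₀ ^ k)⁻¹ * q⁻¹ := by group
    rwa [e] at h2
  obtain ⟨t₀, ht₀, hat⟩ := d.syl (fun g' hg' x hx => d.ec_map hg' x hx)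
    (pCore_le_sylow p S haQ) haEC
  have hc : t₀⁻¹ * (g₀ ^ k * q * (g₀ ^ k)⁻¹ * q⁻¹) ∈
      (S : Subgroup G) ⊓ Subgroup.centralizer (T : Set G) := by
    refine Subgroup.mem_inf.mpr
      ⟨Subgroup.mul_mem _ (Subgroup.inv_mem _ (d.hTS ht₀)) (pCore_le_sylow p S haQ), ?_⟩
    rw [Subgroup.mem_centralizer_iff]
    intro t ht
    have h1 := hat t ht
    calc t * (t₀⁻¹ * (g₀ ^ k * q * (g₀ ^ k)⁻¹ * q⁻¹))
        = t₀⁻¹ * (t₀ * t * t₀⁻¹) * (g₀ ^ k * q * (g₀ ^ k)⁻¹ * q⁻¹) := by group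
      _ = t₀⁻¹ * ((g₀ ^ k * q * (g₀ ^ k)⁻¹ * q⁻¹) * t * (g₀ ^ k * q * (g₀ ^ k)⁻¹ * q⁻¹)⁻¹) *
          (g₀ ^ k * q * (g₀ ^ k)⁻¹ * q⁻¹) := by rw [h1]
      _ = t₀⁻¹ * (g₀ ^ k * q * (g₀ ^ k)⁻¹ * q⁻¹) * t := by group
  have hz := hgPc _ hc
  have hcomm : g₀ ^ k * (g₀ ^ k * q * (g₀ ^ k)⁻¹ * q⁻¹) * (g₀ ^ k)⁻¹ *
      (g₀ ^ k * q * (g₀ ^ k)⁻¹ * q⁻¹)⁻¹ ∈ T ⊓ pCore p G := by
    refine ⟨?_, Subgroup.mul_mem _ (hQ.conj_mem _ haQ _) (Subgroup.inv_mem _ haQ)⟩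
    -- `g a g⁻¹ a⁻¹ = (g t₀ g⁻¹) * (c z c⁻¹) * t₀⁻¹` with `c = t₀⁻¹ a`, `z = c⁻¹ g c g⁻¹`
    have hzc := (Subgroup.mem_centralizer_iff.mp hc.2) _ hz.1
    have h1 : g₀ ^ k * t₀ * (g₀ ^ k)⁻¹ ∈ T := d.ec_map hgEC t₀ ht₀
    have h2 := T.mul_mem (T.mul_mem h1 hz.1) (T.inv_mem ht₀)
    have e : g₀ ^ k * t₀ * (g₀ ^ k)⁻¹ *
        ((t₀⁻¹ * (g₀ ^ k * q * (g₀ ^ k)⁻¹ * q⁻¹))⁻¹ *
          (g₀ ^ k * (t₀⁻¹ * (g₀ ^ k * q * (g₀ ^ k)⁻¹ * q⁻¹)) * (g₀ ^ k)⁻¹)) * t₀⁻¹ =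
        g₀ ^ k * (g₀ ^ k * q * (g₀ ^ k)⁻¹ * q⁻¹) * (g₀ ^ k)⁻¹ *
          (g₀ ^ k * q * (g₀ ^ k)⁻¹ * q⁻¹)⁻¹ := by
      have e1 : (t₀⁻¹ * (g₀ ^ k * q * (g₀ ^ k)⁻¹ * q⁻¹))⁻¹ *
          (g₀ ^ k * (t₀⁻¹ * (g₀ ^ k * q * (g₀ ^ k)⁻¹ * q⁻¹)) * (g₀ ^ k)⁻¹) =
          (t₀⁻¹ * (g₀ ^ k * q * (g₀ ^ k)⁻¹ * q⁻¹)) *
          ((t₀⁻¹ * (g₀ ^ k * q * (g₀ ^ k)⁻¹ * q⁻¹))⁻¹ *
          (g₀ ^ k * (t₀⁻¹ * (g₀ ^ k * q * (g₀ ^ k)⁻¹ * q⁻¹)) * (g₀ ^ k)⁻¹)) *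
          (t₀⁻¹ * (g₀ ^ k * q * (g₀ ^ k)⁻¹ * q⁻¹))⁻¹ := by
        rw [← hzc]; group
      rw [e1]; group
    rwa [e] at h2
  -- coprime action on `O_p(G)/(T ∩ O_p(G))`
  haveI hN := QT_normal d
  have hπ1 : QuotientGroup.mk' (T ⊓ pCore p G) (g₀ ^ k) * QuotientGroup.mk' (T ⊓ pCore p G) q *
      (QuotientGroup.mk' (T ⊓ pCore p G) (g₀ ^ k))⁻¹ =
      QuotientGroup.mk' (T ⊓ pCore p G) (g₀ ^ k * q * (g₀ ^ k)⁻¹ * q⁻¹) *
        QuotientGroup.mk' (T ⊓ pCore p G) q := by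
    rw [← map_inv, ← map_mul, ← map_mul, ← map_mul]
    congr 1
    group
  have hπ2 : QuotientGroup.mk' (T ⊓ pCore p G) (g₀ ^ k) *
      QuotientGroup.mk' (T ⊓ pCore p G) (g₀ ^ k * q * (g₀ ^ k)⁻¹ * q⁻¹) =
      QuotientGroup.mk' (T ⊓ pCore p G) (g₀ ^ k * q * (g₀ ^ k)⁻¹ * q⁻¹) *
        QuotientGroup.mk' (T ⊓ pCore p G) (g₀ ^ k) := by
    have h1 : QuotientGroup.mk' (T ⊓ pCore p G) (g₀ ^ k * (g₀ ^ k * q * (g₀ ^ k)⁻¹ * q⁻¹) *
        (g₀ ^ k)⁻¹ * (g₀ ^ k * q * (g₀ ^ k)⁻¹ * q⁻¹)⁻¹) = 1 :=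
      (QuotientGroup.eq_one_iff _).mpr hcomm
    rw [map_mul, map_mul, map_mul, map_inv, map_inv] at h1
    have h2 := mul_inv_eq_one.mp h1
    have h3 := mul_inv_eq_iff_eq_mul.mp h2
    exact h3
  have h5 := conj_pow_eq hπ1 hπ2 (orderOf (g₀ ^ k))
  rw [← map_pow, pow_orderOf_eq_one, map_one, one_mul, inv_one, mul_one] at h5
  have h6 : (QuotientGroup.mk' (T ⊓ pCore p G) (g₀ ^ k * q * (g₀ ^ k)⁻¹ * q⁻¹)) ^
      orderOf (g₀ ^ k) = 1 := by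
    have := mul_right_cancel (h5.symm.trans (one_mul _).symm)
    exact this
  obtain ⟨j, hj⟩ := (IsPGroup.iff_orderOf.mp (pCore_isPGroup p G)) ⟨_, haQ⟩
  have h7 : (QuotientGroup.mk' (T ⊓ pCore p G) (g₀ ^ k * q * (g₀ ^ k)⁻¹ * q⁻¹)) ^ (p ^ j) = 1 := by
    rw [← map_pow]
    have h8 := pow_orderOf_eq_one (⟨_, haQ⟩ : pCore p G)
    rw [hj] at h8
    have h9 : (g₀ ^ k * q * (g₀ ^ k)⁻¹ * q⁻¹) ^ (p ^ j) = 1 := congrArg Subtype.val h8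
    rw [h9, map_one]
  have h10 := Helper85.ConsNormal.eq_one_of_pow_coprime h6 h7 (Nat.Coprime.pow_right j hk)
  exact (QuotientGroup.eq_one_iff _).mp h10

/-- every automorphism of `T` in the subsystem is induced by an element of `H1`. -/
theorem exists_H1_of_ECT (d : NData p (S : Subgroup G) T EC) {n : G} (hn : EC T n) :
    ∃ g ∈ H1 d, ∀ t ∈ T, g * t * g⁻¹ = n * t * n⁻¹ := by
  obtain ⟨a, b, k, hab, hcop, hpk⟩ := exists_pow_decomp p n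
  obtain ⟨g₁, hg₁, h1⟩ := exists_H1_of_pprime d (ect_pow d hn a) hcop
  obtain ⟨t₀, ht₀, h2⟩ := d.sylT k (ect_pow d hn b) (fun t ht => by rw [hpk]; simp)
  refine ⟨g₁ * t₀, Subgroup.mul_mem _ hg₁ (T_le_H1 d ht₀), fun t ht => ?_⟩
  have h3 : n ^ b * t * (n ^ b)⁻¹ ∈ T := d.ec_map (ect_pow d hn b) t ht
  calc g₁ * t₀ * t * (g₁ * t₀)⁻¹ = g₁ * (t₀ * t * t₀⁻¹) * g₁⁻¹ := by group
    _ = g₁ * (n ^ b * t * (n ^ b)⁻¹) * g₁⁻¹ := by rw [h2 t ht]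
    _ = n ^ a * (n ^ b * t * (n ^ b)⁻¹) * (n ^ a)⁻¹ := h1 _ h3
    _ = (n ^ a * n ^ b) * t * (n ^ a * n ^ b)⁻¹ := by group
    _ = n * t * n⁻¹ := by rw [← hab]

end NSub
end Cfsg.Agent.Lib.Helper84
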