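import Mathlib
import Cfsg.Agent.Lib.Helper84.NSub3

set_option autoImplicit false
set_option linter.unusedSectionVars false
set_option linter.style.haveILetI false

/-!
# Normal subsystems of the fusion system of a group of characteristic `p`: decompositions

`Lsub = Hsub * C_G(T ∩ O_p(G))`, and the resulting decompositions of automorphisms of overgroups
of `T ∩ O_p(G)`.
-/

namespace Cfsg.Agent.Lib.Helper84
namespace NSub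

open Cfsg
open Cfsg.Agent.Lib.Helper85 (IsSylIn)

variable {G : Type*} [Group G] [Finite G] {p : ℕ} [Fact p.Prime] {S : Sylow p G} {T : Subgroup G}
  {EC : Subgroup G → G → Prop}

/-- `Lsub = Hsub * C_G(T ∩ O_p(G))`. -/
theorem Lsub_exists (hG : Subgroup.centralizer ((pCore p G : Subgroup G) : Set G) ≤ pCore p G)
    (d : NData p (S : Subgroup G) T EC) {l : G} (hl : l ∈ Lsub d) :
    ∃ h ∈ Hsub d, ∀ x ∈ T ⊓ pCore p G, l * x * l⁻¹ = h * x * h⁻¹ := by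
  obtain ⟨P, hP⟩ := isSylIn_Hsub hG d
  haveI := Hsub_normal d
  have hfr := Sylow.normalizer_sup_eq_top P
  rw [hP, Subgroup.subgroupOf_map_subtype, inf_of_le_left (T_le_Hsub d)] at hfr
  have hl' : l ∈ ((Subgroup.normalizer (T : Set G) ⊔ Hsub d : Subgroup G) : Set G) := by
    rw [hfr]
    trivial
  rw [Subgroup.mul_normal] at hl'
  obtain ⟨n, hn, h, hh, rfl⟩ := hl'
  have hnT : ∀ t ∈ T, n * t * n⁻¹ ∈ T := fun t ht => (Subgroup.mem_normalizer_iff.mp hn t).mp ht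
  have hhL : h ∈ Lsub d := (Hsub_le_H1 d hh).1
  have hnL : n ∈ Lsub d := by
    have h1 := Subgroup.mul_mem _ hl (Subgroup.inv_mem _ hhL)
    have e : n * h * h⁻¹ = n := by group
    rwa [e] at h1
  have hN := QT_normal d
  have hwc : ∀ g : G, EC (T ⊓ pCore p G) g → ∀ x ∈ T ⊓ pCore p G,
      g * x * g⁻¹ ∈ T ⊓ pCore p G := fun g _ x hx => hN.conj_mem x hx g
  obtain ⟨m, hm, hmn⟩ := d.recp hwc hnT hnL
  obtain ⟨g, hg, hgm⟩ := exists_H1_of_ECT d hm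
  obtain ⟨h', hh', c, rfl, -, hc2⟩ := H1_exists d hg
  refine ⟨h' * h, Subgroup.mul_mem _ hh' hh, fun x hx => ?_⟩
  have hx1 : h * x * h⁻¹ ∈ T ⊓ pCore p G := hN.conj_mem x hx h
  have key : ∀ y ∈ T ⊓ pCore p G, n * y * n⁻¹ = h' * y * h'⁻¹ := by
    intro y hy
    rw [← hmn y hy, ← hgm y hy.1]
    have h1 := hc2 y hy
    calc h' * c * y * (h' * c)⁻¹ = h' * (c * y) * c⁻¹ * h'⁻¹ := by group
      _ = h' * (y * c) * c⁻¹ * h'⁻¹ := by rw [h1]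
      _ = h' * y * h'⁻¹ := by group
  calc n * h * x * (n * h)⁻¹ = n * (h * x * h⁻¹) * n⁻¹ := by group
    _ = h' * (h * x * h⁻¹) * h'⁻¹ := key _ hx1
    _ = h' * h * x * (h' * h)⁻¹ := by group

/-- an element centralizing `T ∩ O_p(G)` and `P/(T ∩ O_p(G))` acts on `P` as a `p`-element. -/
theorem exists_pow_conj_eq (d : NData p (S : Subgroup G) T EC) {P : Subgroup G} {u : G}
    (hu1 : ∀ x ∈ T ⊓ pCore p G, u * x = x * u)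
    (hu2 : ∀ x ∈ P, u * x * u⁻¹ * x⁻¹ ∈ T ⊓ pCore p G) :
    ∃ j : ℕ, ∀ x ∈ P, u ^ (p ^ j) * x * (u ^ (p ^ j))⁻¹ = x := by
  have hQT : IsPGroup p (T ⊓ pCore p G : Subgroup G) := (pCore_isPGroup p G).to_le inf_le_right
  obtain ⟨j, hj⟩ := IsPGroup.iff_card.mp hQT
  refine ⟨j, fun x hx => ?_⟩
  have h1 : u * x * u⁻¹ = (u * x * u⁻¹ * x⁻¹) * x := by group
  have h2 := conj_pow_eq h1 (hu1 _ (hu2 x hx)) (p ^ j)
  have h3 : (u * x * u⁻¹ * x⁻¹) ^ (p ^ j) = 1 := by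
    have h4 := pow_card_eq_one' (G := (T ⊓ pCore p G : Subgroup G)) (x := ⟨_, hu2 x hx⟩)
    rw [hj] at h4
    exact congrArg Subtype.val h4
  rw [h2, h3, one_mul]

/-- decomposition of the automorphisms in the subsystem of an overgroup `P` of `T ∩ O_p(G)`. -/
theorem aut_E_decomp (hG : Subgroup.centralizer ((pCore p G : Subgroup G) : Set G) ≤ pCore p G)
    (d : NData p (S : Subgroup G) T EC) {P : Subgroup G} (hQP : T ⊓ pCore p G ≤ P) {g : G}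
    (hg : EC P g) (hgP : ∀ x ∈ P, g * x * g⁻¹ ∈ P) :
    ∃ h ∈ Hsub d, ∃ u : G, g = h * u ∧ (∀ x ∈ T ⊓ pCore p G, u * x = x * u) ∧
      (∀ x ∈ P, u * x * u⁻¹ * x⁻¹ ∈ T ⊓ pCore p G) := by
  have hN := QT_normal d
  haveI hHn := Hsub_normal d
  have hPT : P ≤ T := d.ec_le hg
  have hgL : g ∈ Lsub d := d.ec_res hg hQP
  obtain ⟨h, hh, hgh⟩ := Lsub_exists hG d hgL
  have hu1 : ∀ x ∈ T ⊓ pCore p G, (h⁻¹ * g) * x = x * (h⁻¹ * g) := by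
    intro x hx
    have h1 := hgh x hx
    calc h⁻¹ * g * x = h⁻¹ * (g * x * g⁻¹) * g := by group
      _ = h⁻¹ * (h * x * h⁻¹) * g := by rw [h1]
      _ = x * (h⁻¹ * g) := by group
  refine ⟨h, hh, h⁻¹ * g, by group, hu1, fun x hx => ?_⟩
  apply Hsub_cent hG d
  · have h1 : h⁻¹ * (g * x * g⁻¹) * h⁻¹⁻¹ ∈ Hsub d :=
      hHn.conj_mem _ (T_le_Hsub d (hPT (hgP x hx))) h⁻¹
    have h2 := Subgroup.mul_mem _ h1 (Subgroup.inv_mem _ (T_le_Hsub d (hPT hx)))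
    have e : h⁻¹ * (g * x * g⁻¹) * h⁻¹⁻¹ * x⁻¹ = h⁻¹ * g * x * (h⁻¹ * g)⁻¹ * x⁻¹ := by group
    rwa [e] at h2
  · intro y hy
    have hy1 : x⁻¹ * y * x ∈ T ⊓ pCore p G := by
      have := hN.conj_mem y hy x⁻¹
      simpa using this
    have h3 := hu1 _ hy1
    have h4 := hu1 y hy
    have h5 : (h⁻¹ * g)⁻¹ * (x⁻¹ * y * x) = (x⁻¹ * y * x) * (h⁻¹ * g)⁻¹ := by
      calc (h⁻¹ * g)⁻¹ * (x⁻¹ * y * x)
          = (h⁻¹ * g)⁻¹ * ((x⁻¹ * y * x) * (h⁻¹ * g)) * (h⁻¹ * g)⁻¹ := by group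
        _ = (h⁻¹ * g)⁻¹ * ((h⁻¹ * g) * (x⁻¹ * y * x)) * (h⁻¹ * g)⁻¹ := by rw [h3]
        _ = (x⁻¹ * y * x) * (h⁻¹ * g)⁻¹ := by group
    calc h⁻¹ * g * x * (h⁻¹ * g)⁻¹ * x⁻¹ * y
        = h⁻¹ * g * x * ((h⁻¹ * g)⁻¹ * (x⁻¹ * y * x)) * x⁻¹ := by group
      _ = h⁻¹ * g * x * ((x⁻¹ * y * x) * (h⁻¹ * g)⁻¹) * x⁻¹ := by rw [h5]
      _ = (h⁻¹ * g * y) * x * (h⁻¹ * g)⁻¹ * x⁻¹ := by group
      _ = (y * (h⁻¹ * g)) * x * (h⁻¹ * g)⁻¹ * x⁻¹ := by rw [h4]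
      _ = y * (h⁻¹ * g * x * (h⁻¹ * g)⁻¹ * x⁻¹) := by group

/-- decomposition of the automorphisms induced by `Hsub` on an overgroup `P ≤ T` of
`T ∩ O_p(G)`. -/
theorem aut_H_decomp (hG : Subgroup.centralizer ((pCore p G : Subgroup G) : Set G) ≤ pCore p G)
    (d : NData p (S : Subgroup G) T EC) {P : Subgroup G} (hQP : T ⊓ pCore p G ≤ P) (hPT : P ≤ T)
    {h : G} (hh : h ∈ Hsub d) (hhP : ∀ x ∈ P, h * x * h⁻¹ ∈ P) :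
    ∃ g u : G, h = g * u ∧ EC P g ∧ (∀ t ∈ T, u * t * u⁻¹ ∈ T) ∧
      (∀ x ∈ T ⊓ pCore p G, u * x = x * u) ∧ (∀ x ∈ T, u * x * u⁻¹ * x⁻¹ ∈ T ⊓ pCore p G) ∧
      (∀ x ∈ P, u⁻¹ * x * u ∈ P) := by
  have hN := QT_normal d
  obtain ⟨n, hnT, hl⟩ := d.frat hPT (fun x hx => hPT (hhP x hx))
  have hlL : n⁻¹ * h ∈ Lsub d := d.ec_res hl hQP
  have hhL : h ∈ Lsub d := (Hsub_le_H1 d hh).1
  have hnL : n ∈ Lsub d := by
    have h1 := Subgroup.mul_mem _ hhL (Subgroup.inv_mem _ hlL)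
    have e : h * (n⁻¹ * h)⁻¹ = n := by group
    rwa [e] at h1
  have hwc : ∀ g : G, EC (T ⊓ pCore p G) g → ∀ x ∈ T ⊓ pCore p G,
      g * x * g⁻¹ ∈ T ⊓ pCore p G := fun g _ x hx => hN.conj_mem x hx g
  obtain ⟨m, hm, hmn⟩ := d.recp hwc hnT hnL
  have hmN := ect_normalizer d hm
  have hnN : n ∈ Subgroup.normalizer (T : Set G) := Helper85.mem_normalizer_of_conj_mem hnT
  have huN : m⁻¹ * n ∈ Subgroup.normalizer (T : Set G) :=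
    Subgroup.mul_mem _ (Subgroup.inv_mem _ hmN) hnN
  have huT : ∀ t ∈ T, (m⁻¹ * n) * t * (m⁻¹ * n)⁻¹ ∈ T :=
    fun t ht => (Subgroup.mem_normalizer_iff.mp huN t).mp ht
  have hu1 : ∀ x ∈ T ⊓ pCore p G, (m⁻¹ * n) * x = x * (m⁻¹ * n) := by
    intro x hx
    have h1 := hmn x hx
    calc m⁻¹ * n * x = m⁻¹ * (n * x * n⁻¹) * n := by group
      _ = m⁻¹ * (m * x * m⁻¹) * n := by rw [h1]
      _ = x * (m⁻¹ * n) := by group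
  have hu1' : ∀ x ∈ T ⊓ pCore p G, (m⁻¹ * n)⁻¹ * x = x * (m⁻¹ * n)⁻¹ := by
    intro x hx
    have h3 := hu1 x hx
    calc (m⁻¹ * n)⁻¹ * x = (m⁻¹ * n)⁻¹ * (x * (m⁻¹ * n)) * (m⁻¹ * n)⁻¹ := by group
      _ = (m⁻¹ * n)⁻¹ * ((m⁻¹ * n) * x) * (m⁻¹ * n)⁻¹ := by rw [h3]
      _ = x * (m⁻¹ * n)⁻¹ := by group
  have hu2 : ∀ x ∈ T, (m⁻¹ * n) * x * (m⁻¹ * n)⁻¹ * x⁻¹ ∈ T ⊓ pCore p G := by
    intro x hx
    apply T_cent hG d (T.mul_mem (huT x hx) (T.inv_mem hx))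
    intro y hy
    have hy1 : x⁻¹ * y * x ∈ T ⊓ pCore p G := by
      have := hN.conj_mem y hy x⁻¹
      simpa using this
    have h5 := hu1' _ hy1
    have h4 := hu1 y hy
    calc m⁻¹ * n * x * (m⁻¹ * n)⁻¹ * x⁻¹ * y
        = m⁻¹ * n * x * ((m⁻¹ * n)⁻¹ * (x⁻¹ * y * x)) * x⁻¹ := by group
      _ = m⁻¹ * n * x * ((x⁻¹ * y * x) * (m⁻¹ * n)⁻¹) * x⁻¹ := by rw [h5]
      _ = (m⁻¹ * n * y) * x * (m⁻¹ * n)⁻¹ * x⁻¹ := by group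
      _ = (y * (m⁻¹ * n)) * x * (m⁻¹ * n)⁻¹ * x⁻¹ := by rw [h4]
      _ = y * (m⁻¹ * n * x * (m⁻¹ * n)⁻¹ * x⁻¹) := by group
  have hu3 : ∀ x ∈ P, (m⁻¹ * n)⁻¹ * x * (m⁻¹ * n) ∈ P := by
    intro x hx
    have hx' : (m⁻¹ * n)⁻¹ * x * (m⁻¹ * n) ∈ T := inv_conj_mem_of_normalizer huN (hPT hx)
    have h1 := hu2 _ hx'
    have h2 := Subgroup.inv_mem _ h1
    have e : ((m⁻¹ * n) * ((m⁻¹ * n)⁻¹ * x * (m⁻¹ * n)) * (m⁻¹ * n)⁻¹ *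
        ((m⁻¹ * n)⁻¹ * x * (m⁻¹ * n))⁻¹)⁻¹ = ((m⁻¹ * n)⁻¹ * x * (m⁻¹ * n)) * x⁻¹ := by group
    rw [e] at h2
    have h3 := P.mul_mem (hQP h2) hx
    have e2 : (m⁻¹ * n)⁻¹ * x * (m⁻¹ * n) * x⁻¹ * x = (m⁻¹ * n)⁻¹ * x * (m⁻¹ * n) := by group
    rwa [e2] at h3
  have h6 : EC P ((m⁻¹ * n) * (n⁻¹ * h) * (m⁻¹ * n)⁻¹) := d.inv huT hl hu3
  have h7 := d.ec_mul h6 hm (fun x hx => d.ec_map h6 x hx)
  refine ⟨m * ((m⁻¹ * n) * (n⁻¹ * h) * (m⁻¹ * n)⁻¹), m⁻¹ * n, by group, h7, huT, hu1, hu2, hu3⟩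

end NSub
end Cfsg.Agent.Lib.Helper84
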