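import Mathlib
import Cfsg.Agent.Lib.Helper84.NSub1
import Cfsg.Agent.Lib.Helper84.FusionSat2
import Cfsg.Agent.Lib.Helper84.Hyperfocal
import Cfsg.Agent.Lib.Helper88.FusBasic

set_option autoImplicit false
set_option linter.unusedSectionVars false
set_option linter.style.haveILetI false

/-!
# Normal subsystems of the fusion system of a group: extraction of the data `NData`
-/

namespace Cfsg.Agent.Lib.Helper84
namespace NSub

open Cfsg Cfsg.FusionSystem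

variable {G : Type*} [Group G]

/-- conjugation by `g` on `P` is a map of `E`. -/
def EC {T : Subgroup G} (E : FusionSystem T) (P : Subgroup G) (g : G) : Prop :=
  conjHom P g ∈ E.Hom P

section basic

variable {S T : Subgroup G} {E : FusionSystem T}

theorem ec_of_mem {P : Subgroup G} {φ : P →* G} (hφ : φ ∈ E.Hom P) {g : G}
    (h : ∀ x : P, φ x = g * x * g⁻¹) : EC E P g :=
  hom_of_eq E hφ (fun x => (h x).symm)

theorem mem_of_ec {P : Subgroup G} {φ : P →* G} {g : G} (hg : EC E P g)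
    (h : ∀ x : P, φ x = g * x * g⁻¹) : φ ∈ E.Hom P :=
  hom_of_eq E hg h

theorem exists_ec_of_mem (hsub : E.IsSubsystemOf (groupFusionSystem S)) {P : Subgroup G}
    {φ : P →* G} (hφ : φ ∈ E.Hom P) : ∃ g : G, EC E P g ∧ ∀ x : P, φ x = g * x * g⁻¹ := by
  obtain ⟨-, -, g, hg⟩ := hsub P hφ
  exact ⟨g, ec_of_mem hφ hg, hg⟩

theorem ec_le {P : Subgroup G} {g : G} (h : EC E P g) : P ≤ T := (E.le_of_mem h).1

theorem ec_map {P : Subgroup G} {g : G} (h : EC E P g) : ∀ x ∈ P, g * x * g⁻¹ ∈ T :=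
  fun x hx => (E.le_of_mem h).2 ⟨x, hx⟩

theorem ec_mul {P Q : Subgroup G} {g h : G} (hg : EC E P g) (hh : EC E Q h)
    (hPQ : ∀ x ∈ P, g * x * g⁻¹ ∈ Q) : EC E P (h * g) := by
  have h1 := E.comp_mem hg hh (fun x => hPQ x x.2)
  refine hom_of_eq E h1 (fun x => ?_)
  show h * g * x * (h * g)⁻¹ = h * (g * x * g⁻¹) * h⁻¹
  group

theorem ec_res {P R : Subgroup G} {g : G} (hg : EC E P g) (hRP : R ≤ P) : EC E R g :=
  hom_of_eq E (res_mem E hg hRP) (fun _ => rfl)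

theorem ec_inv {P Q : Subgroup G} {g : G} (hg : EC E P g) (hQ : ∀ y ∈ Q, g⁻¹ * y * g ∈ P) :
    EC E Q g⁻¹ := by
  have hle : Q ≤ (conjHom P g).range := by
    intro y hy
    refine ⟨⟨g⁻¹ * y * g, hQ y hy⟩, ?_⟩
    show g * (g⁻¹ * y * g) * g⁻¹ = y
    group
  obtain ⟨ψ, hψ, hψx, -⟩ := exists_inv E hg hle
  refine hom_of_eq E hψ (fun y => ?_)
  have hy1 : conjHom P g ⟨g⁻¹ * y * g, hQ y y.2⟩ ∈ Q := by
    have e : conjHom P g ⟨g⁻¹ * y * g, hQ y y.2⟩ = y := by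
      show g * (g⁻¹ * y * g) * g⁻¹ = y
      group
    rw [e]
    exact y.2
  have h2 := hψx ⟨g⁻¹ * y * g, hQ y y.2⟩ hy1
  have e : (⟨conjHom P g ⟨g⁻¹ * y * g, hQ y y.2⟩, hy1⟩ : Q) = y := by
    apply Subtype.ext
    show g * (g⁻¹ * y * g) * g⁻¹ = y
    group
  rw [e] at h2
  rw [h2]
  show g⁻¹ * y * g⁻¹⁻¹ = g⁻¹ * y * g
  rw [inv_inv]

theorem ec_congr {P : Subgroup G} {g h : G} (hg : EC E P g)
    (hh : ∀ x ∈ P, h * x * h⁻¹ = g * x * g⁻¹) : EC E P h :=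
  hom_of_eq E hg (fun x => hh x x.2)

theorem sc_of (hsc : (groupFusionSystem S).StronglyClosed T) :
    ∀ t ∈ T, ∀ g : G, g * t * g⁻¹ ∈ S → g * t * g⁻¹ ∈ T := by
  intro t ht g hg
  have hz : Subgroup.zpowers t ≤ T := (Subgroup.zpowers_le).mpr ht
  have hφ : conjHom (Subgroup.zpowers t) g ∈ (groupFusionSystem S).Hom (Subgroup.zpowers t) := by
    refine ⟨hz.trans hsc.1, ?_, g, fun x => rfl⟩
    rintro ⟨x, k, rfl⟩
    show g * t ^ k * g⁻¹ ∈ S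
    rw [← conj_zpow]
    exact Subgroup.zpow_mem _ hg k
  exact hsc.2 _ hz _ hφ ⟨t, Subgroup.mem_zpowers t⟩

theorem range_eq_of_wc [Finite G] {P : Subgroup G} {g : G}
    (hwc : ∀ x ∈ P, g * x * g⁻¹ ∈ P) : (conjHom P g).range = P := by
  have hN : g ∈ Subgroup.normalizer (P : Set G) := Helper85.mem_normalizer_of_conj_mem hwc
  ext y
  constructor
  · rintro ⟨x, rfl⟩
    exact hwc x x.2
  · intro hy
    have h1 : g⁻¹ * y * g ∈ P := by
      have h := (Subgroup.mem_normalizer_iff.mp (Subgroup.inv_mem _ hN) y).mp hy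
      simpa using h
    refine ⟨⟨g⁻¹ * y * g, h1⟩, ?_⟩
    show g * (g⁻¹ * y * g) * g⁻¹ = y
    group

theorem fullyNormalized_of_wc [Finite G] (hsub : E.IsSubsystemOf (groupFusionSystem S))
    {P : Subgroup G} (hPT : P ≤ T)
    (hwc : ∀ g : G, EC E P g → ∀ x ∈ P, g * x * g⁻¹ ∈ P) : E.IsFullyNormalized P := by
  refine ⟨hPT, fun Q hQ => ?_⟩
  obtain ⟨φ, hφ, rfl⟩ := hQ
  obtain ⟨g, hg, hφg⟩ := exists_ec_of_mem hsub hφ
  have e : φ = conjHom P g := MonoidHom.ext hφg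
  rw [e, range_eq_of_wc (hwc g hg)]

end basic

section sat

variable [Finite G] {p : ℕ} [Fact p.Prime] (S : Sylow p G) {T : Subgroup G} {E : FusionSystem T}

theorem syl_of (hTS : T ≤ (S : Subgroup G)) (hsat : E.IsSaturated p)
    (hsub : E.IsSubsystemOf (groupFusionSystem (S : Subgroup G))) {P : Subgroup G} {s : G}
    (hwc : ∀ g : G, EC E P g → ∀ x ∈ P, g * x * g⁻¹ ∈ P) (hs : s ∈ (S : Subgroup G))
    (hsE : EC E P s) : ∃ t ∈ T, ∀ x ∈ P, s * x * s⁻¹ = t * x * t⁻¹ := by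
  have hPT : P ≤ T := ec_le hsE
  have hT : IsPGroup p T := S.isPGroup'.to_le hTS
  have hfn := fullyNormalized_of_wc hsub hPT hwc
  obtain ⟨-, R, hR⟩ := fullyAutomized_of_fullyNormalized p hT E hsat hfn
  have hsN : s ∈ Subgroup.normalizer (P : Set G) :=
    Helper85.mem_normalizer_of_conj_mem (fun y hy => hwc s hsE y hy)
  obtain ⟨α, hα⟩ := Helper85.exists_mulAut_conj hsN
  have hαE : α ∈ E.autGroup P := (mem_autGroup_iff E hPT α).2 (hom_of_eq E hsE (fun x => hα x))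
  have hX : IsPGroup p ((autInducedBy (S : Subgroup G) P).subgroupOf (E.autGroup P)) :=
    (autInducedBy_isPGroup S.isPGroup' P).comap_subtype
  have hle : (R : Subgroup (E.autGroup P)) ≤
      (autInducedBy (S : Subgroup G) P).subgroupOf (E.autGroup P) := by
    rw [hR]
    intro β hβ
    rw [Subgroup.mem_subgroupOf, mem_autInducedBy_iff] at hβ ⊢
    obtain ⟨t, ht, h⟩ := hβ
    exact ⟨t, hTS ht, h⟩
  have hEq := R.is_maximal' hX hle
  have hmem : (⟨α, hαE⟩ : E.autGroup P) ∈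
      (autInducedBy (S : Subgroup G) P).subgroupOf (E.autGroup P) := by
    rw [Subgroup.mem_subgroupOf, mem_autInducedBy_iff]
    exact ⟨s, hs, hα⟩
  rw [hEq, hR, Subgroup.mem_subgroupOf, mem_autInducedBy_iff] at hmem
  obtain ⟨t, ht, h⟩ := hmem
  exact ⟨t, ht, fun x hx => (hα ⟨x, hx⟩).symm.trans (h ⟨x, hx⟩)⟩

theorem sylT_of (hTS : T ≤ (S : Subgroup G)) (hsat : E.IsSaturated p) {n : G} (k : ℕ)
    (hn : EC E T n) (hk : ∀ t ∈ T, n ^ (p ^ k) * t = t * n ^ (p ^ k)) :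
    ∃ t₀ ∈ T, ∀ t ∈ T, n * t * n⁻¹ = t₀ * t * t₀⁻¹ := by
  haveI : Finite T := inferInstance
  obtain ⟨⟨-, R, hR⟩, -⟩ := Helper88.saturated_top hsat
  have hnN : n ∈ Subgroup.normalizer (T : Set G) :=
    Helper85.mem_normalizer_of_conj_mem (fun y hy => ec_map hn y hy)
  obtain ⟨α, hα⟩ := Helper85.exists_mulAut_conj hnN
  have hαE : α ∈ E.autGroup T := (mem_autGroup_iff E le_rfl α).2 (hom_of_eq E hn (fun x => hα x))
  have hαk : α ^ (p ^ k) = 1 := by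
    ext x
    have h2 := aut_pow_apply α n hα (p ^ k) x
    rw [h2, hk x x.2]
    simp
  have hB : IsPGroup p (Subgroup.zpowers (⟨α, hαE⟩ : E.autGroup T)) := by
    rintro ⟨β, j, rfl⟩
    refine ⟨k, ?_⟩
    apply Subtype.ext
    have h1 : (⟨α, hαE⟩ : E.autGroup T) ^ (p ^ k) = 1 := Subtype.ext hαk
    show ((⟨α, hαE⟩ : E.autGroup T) ^ j) ^ (p ^ k) = 1
    rw [← zpow_natCast, ← zpow_mul, mul_comm, zpow_mul, zpow_natCast, h1, one_zpow]
  haveI : Finite (E.autGroup T) := finite_autGroup E le_rfl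
  obtain ⟨γ, hγ⟩ := exists_conj_le_sylow R hB
  have h1 := hγ _ (Subgroup.mem_zpowers _)
  rw [hR, Subgroup.mem_subgroupOf, mem_autInducedBy_iff] at h1
  obtain ⟨t, ht, h⟩ := h1
  refine ⟨(((γ : MulAut T)⁻¹ ⟨t, ht⟩ : T) : G), Subtype.property _, fun x hx => ?_⟩
  have h2 := h ((γ : MulAut T) ⟨x, hx⟩)
  have h3 : (γ : MulAut T) (α ⟨x, hx⟩) = ⟨t, ht⟩ * (γ : MulAut T) ⟨x, hx⟩ * ⟨t, ht⟩⁻¹ := by
    apply Subtype.ext
    have e1 : (((γ * ⟨α, hαE⟩ * γ⁻¹ : E.autGroup T) : MulAut T) ((γ : MulAut T) ⟨x, hx⟩)) =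
        (γ : MulAut T) (α ⟨x, hx⟩) := by simp
    rw [← e1]
    exact h2
  have h4 : α ⟨x, hx⟩ = (γ : MulAut T)⁻¹ ⟨t, ht⟩ * ⟨x, hx⟩ * ((γ : MulAut T)⁻¹ ⟨t, ht⟩)⁻¹ := by
    have h5 : (γ : MulAut T)⁻¹ ((γ : MulAut T) (α ⟨x, hx⟩)) =
        (γ : MulAut T)⁻¹ (⟨t, ht⟩ * (γ : MulAut T) ⟨x, hx⟩ * ⟨t, ht⟩⁻¹) := by rw [h3]
    rw [MulAut.inv_apply_self, map_mul, map_mul, map_inv, MulAut.inv_apply_self] at h5
    exact h5
  have h6 := congrArg Subtype.val h4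
  rw [hα] at h6
  exact h6

theorem recp_of (hTS : T ≤ (S : Subgroup G)) (hsat : E.IsSaturated p)
    (hsub : E.IsSubsystemOf (groupFusionSystem (S : Subgroup G))) {P : Subgroup G} {n : G}
    (hwc : ∀ g : G, EC E P g → ∀ x ∈ P, g * x * g⁻¹ ∈ P) (hnT : ∀ t ∈ T, n * t * n⁻¹ ∈ T)
    (hn : EC E P n) : ∃ m : G, EC E T m ∧ ∀ x ∈ P, m * x * m⁻¹ = n * x * n⁻¹ := by
  have hPT : P ≤ T := ec_le hn
  have hT : IsPGroup p T := S.isPGroup'.to_le hTS
  have hfn := fullyNormalized_of_wc hsub hPT hwc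
  have hrec := receptive_of_fullyCentralized p hT E hsat
    (fullyCentralized_of_fullyNormalized p hT E hsat hfn)
  obtain ⟨ψ, hψ, hψx⟩ := hrec.2 P (conjHom P n) hn (range_eq_of_wc (hwc n hn))
  have hTle : T ≤ extender T P (conjHom P n) := by
    intro g hg
    rw [mem_extender_iff]
    have hgN : g ∈ Subgroup.normalizer (P : Set G) :=
      Helper85.mem_normalizer_of_conj_mem (fun y hy => hwc g (E.conj_mem hPT hg) y hy)
    refine ⟨hg, hgN, n * g * n⁻¹, hnT g hg, fun x hx => ?_⟩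
    show n * (g * x * g⁻¹) * n⁻¹ = n * g * n⁻¹ * (n * x * n⁻¹) * (n * g * n⁻¹)⁻¹
    group
  obtain ⟨m, hm, hψm⟩ := exists_ec_of_mem hsub hψ
  refine ⟨m, ec_res hm hTle, fun x hx => ?_⟩
  have h1 := hψx x hx (hTle (hPT hx))
  rw [hψm] at h1
  exact h1

theorem inv_of (hTS : T ≤ (S : Subgroup G))
    (hinv : E.IsInvariantIn (groupFusionSystem (S : Subgroup G))) {P P' : Subgroup G} {g n : G}
    (hnT : ∀ t ∈ T, n * t * n⁻¹ ∈ T) (hg : EC E P g) (hP' : ∀ y ∈ P', n⁻¹ * y * n ∈ P) :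
    EC E P' (n * g * n⁻¹) := by
  obtain ⟨-, -, hinvE, -⟩ := hinv
  have hPT : P ≤ T := ec_le hg
  have hnN : n ∈ Subgroup.normalizer (T : Set G) := Helper85.mem_normalizer_of_conj_mem hnT
  obtain ⟨α, hα⟩ := Helper85.exists_mulAut_conj hnN
  have hαF : α ∈ (groupFusionSystem (S : Subgroup G)).autGroup T :=
    (mem_autGroup_iff _ hTS α).2 ⟨hTS, fun x => hTS (α x).2, n, fun x => hα x⟩
  obtain ⟨χ, hχ, hχx⟩ := hinvE P hPT (conjHom P g) hg α hαF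
  have hle : P' ≤ (P.subgroupOf T).map (T.subtype.comp α.toMonoidHom) := by
    intro y hy
    refine ⟨⟨n⁻¹ * y * n, hPT (hP' y hy)⟩, Subgroup.mem_subgroupOf.mpr (hP' y hy), ?_⟩
    show ((α ⟨n⁻¹ * y * n, _⟩ : T) : G) = y
    rw [hα]
    show n * (n⁻¹ * y * n) * n⁻¹ = y
    group
  refine hom_of_eq E (res_mem E hχ hle) (fun y => ?_)
  have hx : n⁻¹ * (y : G) * n ∈ P := hP' y y.2
  have hφx : conjHom P g ⟨_, hx⟩ ∈ T := (E.le_of_mem hg).2 _
  have hαx : ((α ⟨((⟨n⁻¹ * (y : G) * n, hx⟩ : P) : G), hPT hx⟩ : T) : G) ∈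
      (P.subgroupOf T).map (T.subtype.comp α.toMonoidHom) :=
    ⟨_, Subgroup.mem_subgroupOf.mpr hx, rfl⟩
  have h1 := hχx ⟨_, hx⟩ hφx hαx
  have e : (⟨((α ⟨((⟨n⁻¹ * (y : G) * n, hx⟩ : P) : G), hPT hx⟩ : T) : G), hαx⟩ :
      ↥((P.subgroupOf T).map (T.subtype.comp α.toMonoidHom))) = Subgroup.inclusion hle y := by
    apply Subtype.ext
    show ((α ⟨n⁻¹ * (y : G) * n, _⟩ : T) : G) = y
    rw [hα]
    show n * (n⁻¹ * (y : G) * n) * n⁻¹ = y
    group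
  rw [e] at h1
  show n * g * n⁻¹ * y * (n * g * n⁻¹)⁻¹ = χ (Subgroup.inclusion hle y)
  rw [h1, hα]
  show _ = n * (g * (n⁻¹ * (y : G) * n) * g⁻¹) * n⁻¹
  group

theorem frat_of (hTS : T ≤ (S : Subgroup G))
    (hinv : E.IsInvariantIn (groupFusionSystem (S : Subgroup G))) {P : Subgroup G} {g : G}
    (hPT : P ≤ T) (hg : ∀ x ∈ P, g * x * g⁻¹ ∈ T) :
    ∃ n : G, (∀ t ∈ T, n * t * n⁻¹ ∈ T) ∧ EC E P (n⁻¹ * g) := by
  obtain ⟨-, -, -, hfrat⟩ := hinv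
  have hF : conjHom P g ∈ (groupFusionSystem (S : Subgroup G)).Hom P :=
    ⟨hPT.trans hTS, fun x => hTS (hg x x.2), g, fun x => rfl⟩
  obtain ⟨α, hα, φ₀, hφ₀, h⟩ := hfrat P hPT (conjHom P g) hF
  obtain ⟨-, -, n, hn⟩ := (mem_autGroup_iff _ hTS α).1 hα
  refine ⟨n, fun t ht => ?_, ?_⟩
  · have h1 := hn ⟨t, ht⟩
    have h2 : ((α ⟨t, ht⟩ : T) : G) = n * t * n⁻¹ := h1
    rw [← h2]
    exact (α ⟨t, ht⟩).2
  · refine hom_of_eq E hφ₀ (fun x => ?_)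
    have hx : φ₀ x ∈ T := (E.le_of_mem hφ₀).2 x
    have h1 : g * x * g⁻¹ = ((α ⟨φ₀ x, hx⟩ : T) : G) := h x hx
    have h2 : ((α ⟨φ₀ x, hx⟩ : T) : G) = n * φ₀ x * n⁻¹ := hn ⟨φ₀ x, hx⟩
    have h3 : g * x * g⁻¹ = n * φ₀ x * n⁻¹ := h1.trans h2
    show n⁻¹ * g * x * (n⁻¹ * g)⁻¹ = φ₀ x
    calc n⁻¹ * g * x * (n⁻¹ * g)⁻¹ = n⁻¹ * (g * x * g⁻¹) * n := by group
      _ = n⁻¹ * (n * φ₀ x * n⁻¹) * n := by rw [h3]
      _ = φ₀ x := by group

theorem ext_of (hTS : T ≤ (S : Subgroup G))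
    (hextE : ∀ α ∈ E.autGroup T,
      ∃ β ∈ (groupFusionSystem (S : Subgroup G)).autGroup (T ⊔ centralizerIn (S : Subgroup G) T),
      (∀ x : T, ((β (Subgroup.inclusion le_sup_left x) :
          ↥(T ⊔ centralizerIn (S : Subgroup G) T)) : G) = ((α x : T) : G)) ∧
      ∀ c : ↥(T ⊔ centralizerIn (S : Subgroup G) T), (c : G) ∈ centralizerIn (S : Subgroup G) T →
        (c : G)⁻¹ * ((β c : ↥(T ⊔ centralizerIn (S : Subgroup G) T)) : G) ∈
          T ⊓ Subgroup.centralizer (T : Set G))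
    {n : G} (hn : EC E T n) : ∃ g : G, (∀ t ∈ T, g * t * g⁻¹ = n * t * n⁻¹) ∧
    ∀ c ∈ (S : Subgroup G) ⊓ Subgroup.centralizer (T : Set G),
      c⁻¹ * (g * c * g⁻¹) ∈ T ⊓ Subgroup.centralizer (T : Set G) := by
  have hnN : n ∈ Subgroup.normalizer (T : Set G) :=
    Helper85.mem_normalizer_of_conj_mem (fun y hy => ec_map hn y hy)
  obtain ⟨α, hα⟩ := Helper85.exists_mulAut_conj hnN
  have hαE : α ∈ E.autGroup T := (mem_autGroup_iff E le_rfl α).2 (hom_of_eq E hn (fun x => hα x))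
  obtain ⟨β, hβ, hβ1, hβ2⟩ := hextE α hαE
  have hK : T ⊔ centralizerIn (S : Subgroup G) T ≤ (S : Subgroup G) :=
    sup_le hTS (centralizerIn_le _ T)
  obtain ⟨-, -, g, hg⟩ := (mem_autGroup_iff _ hK β).1 hβ
  refine ⟨g, fun t ht => ?_, fun c hc => ?_⟩
  · have h1 := hβ1 ⟨t, ht⟩
    have h2 : ((β (Subgroup.inclusion le_sup_left ⟨t, ht⟩) :
        ↥(T ⊔ centralizerIn (S : Subgroup G) T)) : G) = g * t * g⁻¹ :=
      hg (Subgroup.inclusion le_sup_left ⟨t, ht⟩)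
    exact h2.symm.trans (h1.trans (hα ⟨t, ht⟩))
  · have hc' : c ∈ centralizerIn (S : Subgroup G) T := hc
    have hcK : c ∈ T ⊔ centralizerIn (S : Subgroup G) T := (le_sup_right : _ ≤ T ⊔ _) hc'
    have h1 := hβ2 ⟨c, hcK⟩ hc'
    have h2 : ((β ⟨c, hcK⟩ : ↥(T ⊔ centralizerIn (S : Subgroup G) T)) : G) = g * c * g⁻¹ :=
      hg ⟨c, hcK⟩
    rw [← h2]
    exact h1

/-- the data attached to a normal subsystem of the fusion system of `G` on `S`. -/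
theorem nData (E : FusionSystem T)
    (hE : E.IsNormalIn (groupFusionSystem (S : Subgroup G)) p) :
    NData p (S : Subgroup G) T (EC E) := by
  obtain ⟨⟨hsat, -, hinv⟩, hext⟩ := hE
  have hsub := hinv.1
  have hsc := hinv.2.1
  have hTS : T ≤ (S : Subgroup G) := hsc.1
  exact {
    hTS := hTS
    sc := sc_of hsc
    ec_le := fun h => ec_le h
    ec_map := fun h => ec_map h
    ec_inner := fun hP ht => E.conj_mem hP ht
    ec_mul := fun hg hh hPQ => ec_mul hg hh hPQ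
    ec_res := fun hg hRP => ec_res hg hRP
    ec_inv := fun hg hQ => ec_inv hg hQ
    ec_congr := fun hg hh => ec_congr hg hh
    inv := fun hnT hg hP' => inv_of S hTS hinv hnT hg hP'
    frat := fun hPT hg => frat_of S hTS hinv hPT hg
    ext := fun hn => ext_of S hTS hext hn
    syl := fun hwc hs hsE => syl_of S hTS hsat hsub hwc hs hsE
    sylT := fun k hn hk => sylT_of S hTS hsat k hn hk
    recp := fun hwc hnT hn => recp_of S hTS hsat hsub hwc hnT hn }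

end sat

end NSub
end Cfsg.Agent.Lib.Helper84
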