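import Mathlib
import Cfsg.Agent.Lib.Helper84.NSub4
import Cfsg.Agent.Lib.Helper84.NSub5
import Cfsg.Agent.Lib.Helper84.FusionAlperin
import Cfsg.Agent.Lib.Helper84.FusionApps
import Cfsg.Agent.Lib.Helper84.ConsGroup
import Cfsg.Agent.Lib.Helper87.FusionHyp
import Cfsg.Agent.Lib.Helper85.GroupFusion
import Cfsg.Agent.Lib.Helper85.ConsNormal
import Cfsg.Agent.Lib.Helper85.ModelCore
import Cfsg.Agent.Lib.Helper47.Subn

set_option autoImplicit false
set_option linter.unusedSectionVars false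
set_option linter.style.haveILetI false

/-!
# Normal subsystems of the fusion system of a group of characteristic `p` are the fusion systems of
its normal subgroups
-/

namespace Cfsg.Agent.Lib.Helper84
namespace NSub

open Cfsg Cfsg.FusionSystem
open Cfsg.Agent.Lib.Helper85 (IsSylIn)

variable {G : Type*} [Group G]

/-- two saturated systems over `T`: if `R` is normal in the first and the `p'`-automorphisms in the
first system of the overgroups of `R` lie in the second, the first is contained in the second. -/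
theorem le_of_pprime_aut {T : Subgroup G} [Finite T] {p : ℕ} [Fact p.Prime] (hT : IsPGroup p T)
    (E₁ E₂ : FusionSystem T) (h₁ : E₁.IsSaturated p) {R : Subgroup G} (hR : E₁.IsNormal R)
    (h : ∀ P : Subgroup G, R ≤ P → P ≤ T → ∀ α ∈ E₁.autGroup P, (orderOf α).Coprime p →
      α ∈ E₂.autGroup P) : E₁ ≤ E₂ := by
  apply alperin_goldschmidt p hT E₁ h₁ E₂
  intro P hP α hα
  have hdata : P ≤ T ∧ E₁.IsCentric P ∧ E₁.IsRadical p P ∧ E₁.IsFullyAutomized p P := by
    rcases hP with rfl | hP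
    · exact ⟨le_rfl, top_centric E₁, top_radical hT E₁ h₁, (Helper88.saturated_top h₁).1⟩
    · exact ⟨hP.1.1, hP.1, radical_of_essential hT E₁ hP,
        fullyAutomized_of_fullyNormalized p hT E₁ h₁ hP.2.1⟩
  obtain ⟨hPT, hc, hr, hfa⟩ := hdata
  have hRP : R ≤ P := le_of_normal_of_centric_of_pCore_le hT E₁ hR hc (le_of_eq hr.2)
  obtain ⟨c, hc', β, hβ, rfl⟩ := Helper87.exists_aut_mul_pResidual E₁ hfa hα
  refine (E₂.autGroup P).mul_mem (autInducedBy_le_autGroup E₂ hPT hc') ?_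
  rw [Helper87.map_pResidual_eq_closure] at hβ
  exact (Subgroup.closure_le _).mpr (fun a ha => h P hRP hPT a ha.1 ha.2) hβ

theorem conj_aut_apply {P : Subgroup G} (v : Subgroup.normalizer (P : Set G)) (β : MulAut P)
    (k : G) (hk : ∀ x : P, ((β x : P) : G) = k * x * k⁻¹) (x : P) :
    (((P.normalizerMonoidHom v * β * (P.normalizerMonoidHom v)⁻¹) x : P) : G) =
      ((v : G) * k * (v : G)⁻¹) * x * ((v : G) * k * (v : G)⁻¹)⁻¹ := by
  have h1 : (P.normalizerMonoidHom v)⁻¹ = P.normalizerMonoidHom v⁻¹ := (map_inv _ _).symm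
  rw [h1]
  show (v : G) * ((β (P.normalizerMonoidHom v⁻¹ x) : P) : G) * (v : G)⁻¹ = _
  rw [hk]
  show (v : G) * (k * ((v : G)⁻¹ * x * (v : G)⁻¹⁻¹) * k⁻¹) * (v : G)⁻¹ = _
  group

/-- an automorphism of `p'`-order induced by `b * u`, where `b` induces an element of `B` and `u`
a `p`-element normalizing `B`, lies in `B`. -/
theorem mem_of_decomp {p : ℕ} [Fact p.Prime] {P : Subgroup G} (B : Subgroup (MulAut P)) {b u : G}
    (hbN : b ∈ Subgroup.normalizer (P : Set G)) (huN : u ∈ Subgroup.normalizer (P : Set G))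
    (hb : P.normalizerMonoidHom ⟨b, hbN⟩ ∈ B)
    (hnorm : ∀ v : Subgroup.normalizer (P : Set G), (v = ⟨u, huN⟩ ∨ v = ⟨u, huN⟩⁻¹) → ∀ β ∈ B,
      P.normalizerMonoidHom v * β * (P.normalizerMonoidHom v)⁻¹ ∈ B)
    (j : ℕ) (hj : ∀ x ∈ P, u ^ (p ^ j) * x * (u ^ (p ^ j))⁻¹ = x)
    {α : MulAut P} (hα : ∀ x : P, ((α x : P) : G) = (b * u) * x * (b * u)⁻¹)
    (hcop : (orderOf α).Coprime p) : α ∈ B := by
  have hαν : α = P.normalizerMonoidHom ⟨b, hbN⟩ * P.normalizerMonoidHom ⟨u, huN⟩ := by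
    ext x
    rw [hα]
    show _ = b * (u * x * u⁻¹) * b⁻¹
    group
  have hυ : (P.normalizerMonoidHom ⟨u, huN⟩) ^ (p ^ j) = 1 := by
    ext x
    have h2 := aut_pow_apply (P.normalizerMonoidHom ⟨u, huN⟩) u (fun _ => rfl) (p ^ j) x
    rw [h2, hj x x.2]
    rfl
  have hA : IsPGroup p (Subgroup.zpowers (P.normalizerMonoidHom ⟨u, huN⟩)) := by
    rintro ⟨γ, i, rfl⟩
    refine ⟨j, Subtype.ext ?_⟩
    show ((P.normalizerMonoidHom ⟨u, huN⟩) ^ i) ^ (p ^ j) = 1
    rw [← zpow_natCast, ← zpow_mul, mul_comm, zpow_mul, zpow_natCast, hυ, one_zpow]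
  have hAN : Subgroup.zpowers (P.normalizerMonoidHom ⟨u, huN⟩) ≤
      Subgroup.normalizer ((B : Subgroup (MulAut P)) : Set (MulAut P)) := by
    rw [Subgroup.zpowers_le, Subgroup.mem_normalizer_iff]
    intro γ
    constructor
    · exact hnorm _ (Or.inl rfl) γ
    · intro h
      have h3 := hnorm _ (Or.inr rfl) _ h
      rw [map_inv, inv_inv] at h3
      have e : (P.normalizerMonoidHom ⟨u, huN⟩)⁻¹ *
          (P.normalizerMonoidHom ⟨u, huN⟩ * γ * (P.normalizerMonoidHom ⟨u, huN⟩)⁻¹) *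
          P.normalizerMonoidHom ⟨u, huN⟩ = γ := by group
      rwa [e] at h3
  have hmem : P.normalizerMonoidHom ⟨b, hbN⟩ * P.normalizerMonoidHom ⟨u, huN⟩ ∈
      Subgroup.zpowers (P.normalizerMonoidHom ⟨u, huN⟩) ⊔ B :=
    Subgroup.mul_mem _ ((le_sup_right : B ≤ _) hb)
      ((le_sup_left : Subgroup.zpowers (P.normalizerMonoidHom ⟨u, huN⟩) ≤ _)
        (Subgroup.mem_zpowers _))
  rw [hαν] at hcop ⊢
  exact Helper47.mem_of_mem_sup_of_coprime_of_le_normalizer hAN hA hmem hcop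

section main

variable [Finite G] {p : ℕ} [Fact p.Prime] (S : Sylow p G) {T : Subgroup G} (E : FusionSystem T)

theorem QT_isNormal (hE : E.IsNormalIn (groupFusionSystem (S : Subgroup G)) p) :
    E.IsNormal (T ⊓ pCore p G) := by
  obtain ⟨⟨hsat, -, hinv⟩, -⟩ := hE
  haveI := pCore_normal p G
  have hreal := ConsGroup.group_isRealizedBy (S : Subgroup G)
  have hQ' : pCore p G ≤ (S : Subgroup G).subtype.range := by
    rw [Subgroup.range_subtype]
    exact pCore_le_sylow p S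
  have h := Helper85.ConsNormal.isNormal_inf S.isPGroup' hreal (pCore p G) hQ' hsat hinv.1 hinv.2.1
  have e : Helper85.preSub (S : Subgroup G).subtype (pCore p G) = pCore p G := by
    ext x
    rw [Helper85.mem_preSub]
    constructor
    · rintro ⟨hx, h⟩
      exact h
    · intro h
      exact ⟨pCore_le_sylow p S h, h⟩
  rwa [e] at h

theorem QT_isNormal_rel {N H : Subgroup G} (hN : N.Normal) (hNT : N ≤ T) (hTH : T ≤ H) :
    (fusionSystemOfSubgroup H T hTH).IsNormal N := by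
  have hreal := ConsGroup.rel_isRealizedBy H T hTH
  haveI : (N.subgroupOf H).Normal := hN.subgroupOf H
  have hR' : N.subgroupOf H ≤ (Subgroup.inclusion hTH).range := by
    intro x hx
    exact ⟨⟨x, hNT (Subgroup.mem_subgroupOf.mp hx)⟩, rfl⟩
  have h := Helper85.ModelCore.isNormal_preSub hreal (N.subgroupOf H) hR'
  have e : Helper85.preSub (Subgroup.inclusion hTH) (N.subgroupOf H) = N := by
    ext x
    rw [Helper85.mem_preSub]
    constructor
    · rintro ⟨hx, h⟩
      exact Subgroup.mem_subgroupOf.mp h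
    · intro h
      exact ⟨hNT h, Subgroup.mem_subgroupOf.mpr h⟩
  rwa [e] at h

theorem aut_E_le (hG : Subgroup.centralizer ((pCore p G : Subgroup G) : Set G) ≤ pCore p G)
    (hE : E.IsNormalIn (groupFusionSystem (S : Subgroup G)) p) {P : Subgroup G}
    (hQP : T ⊓ pCore p G ≤ P) (hPT : P ≤ T) {α : MulAut P} (hα : α ∈ E.autGroup P)
    (hcop : (orderOf α).Coprime p) :
    α ∈ (fusionSystemOfSubgroup (Hsub (nData S E hE)) T (T_le_Hsub (nData S E hE))).autGroup P := by
  have hsub := hE.1.2.2.1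
  have hHn := Hsub_normal (nData S E hE)
  rw [Helper85.rel_autGroup_eq (T_le_Hsub (nData S E hE)) hPT]
  have hαE := (mem_autGroup_iff E hPT α).1 hα
  obtain ⟨g, hg, hαg⟩ := exists_ec_of_mem hsub hαE
  have hαg' : ∀ x : P, ((α x : P) : G) = g * x * g⁻¹ := hαg
  have hgP : ∀ x ∈ P, g * x * g⁻¹ ∈ P := fun x hx => by
    rw [← hαg' ⟨x, hx⟩]
    exact (α ⟨x, hx⟩).2
  obtain ⟨h, hh, u, rfl, hu1, hu2⟩ := aut_E_decomp hG (nData S E hE) hQP hg hgP
  have huP : ∀ x ∈ P, u * x * u⁻¹ ∈ P := fun x hx => by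
    have h1 := P.mul_mem (hQP (hu2 x hx)) hx
    have e : u * x * u⁻¹ * x⁻¹ * x = u * x * u⁻¹ := by group
    rwa [e] at h1
  have huN : u ∈ Subgroup.normalizer (P : Set G) := Helper85.mem_normalizer_of_conj_mem huP
  have hgN : h * u ∈ Subgroup.normalizer (P : Set G) := Helper85.mem_normalizer_of_conj_mem hgP
  have hhN : h ∈ Subgroup.normalizer (P : Set G) := by
    have h1 := Subgroup.mul_mem _ hgN (Subgroup.inv_mem _ huN)
    have e : h * u * u⁻¹ = h := by group
    rwa [e] at h1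
  obtain ⟨j, hj⟩ := exists_pow_conj_eq (nData S E hE) hu1 hu2
  refine mem_of_decomp _ hhN huN ?_ ?_ j hj hαg' hcop
  · rw [mem_autInducedBy_iff]
    exact ⟨h, hh, fun _ => rfl⟩
  · intro v _ β hβ
    rw [mem_autInducedBy_iff] at hβ ⊢
    obtain ⟨k, hk, hβk⟩ := hβ
    exact ⟨(v : G) * k * (v : G)⁻¹, hHn.conj_mem k hk _, conj_aut_apply v β k hβk⟩

theorem aut_H_le (hG : Subgroup.centralizer ((pCore p G : Subgroup G) : Set G) ≤ pCore p G)
    (hE : E.IsNormalIn (groupFusionSystem (S : Subgroup G)) p) {P : Subgroup G}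
    (hQP : T ⊓ pCore p G ≤ P) (hPT : P ≤ T) {α : MulAut P}
    (hα : α ∈ (fusionSystemOfSubgroup (Hsub (nData S E hE)) T
      (T_le_Hsub (nData S E hE))).autGroup P)
    (hcop : (orderOf α).Coprime p) : α ∈ E.autGroup P := by
  have hsub := hE.1.2.2.1
  rw [Helper85.rel_autGroup_eq (T_le_Hsub (nData S E hE)) hPT, mem_autInducedBy_iff] at hα
  obtain ⟨h, hh, hαh⟩ := hα
  have hhP : ∀ x ∈ P, h * x * h⁻¹ ∈ P := fun x hx => by
    rw [← hαh ⟨x, hx⟩]
    exact (α ⟨x, hx⟩).2
  obtain ⟨g, u, rfl, hg, huT, hu1, hu2, hu3⟩ := aut_H_decomp hG (nData S E hE) hQP hPT hh hhP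
  have huP : ∀ x ∈ P, u * x * u⁻¹ ∈ P := fun x hx => by
    have h1 := P.mul_mem (hQP (hu2 x (hPT hx))) hx
    have e : u * x * u⁻¹ * x⁻¹ * x = u * x * u⁻¹ := by group
    rwa [e] at h1
  have huN : u ∈ Subgroup.normalizer (P : Set G) := Helper85.mem_normalizer_of_conj_mem huP
  have hguN : g * u ∈ Subgroup.normalizer (P : Set G) := Helper85.mem_normalizer_of_conj_mem hhP
  have hgN : g ∈ Subgroup.normalizer (P : Set G) := by
    have h1 := Subgroup.mul_mem _ hguN (Subgroup.inv_mem _ huN)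
    have e : g * u * u⁻¹ = g := by group
    rwa [e] at h1
  have huTN : u ∈ Subgroup.normalizer (T : Set G) := Helper85.mem_normalizer_of_conj_mem huT
  obtain ⟨j, hj⟩ := exists_pow_conj_eq (nData S E hE) hu1 (fun x hx => hu2 x (hPT hx))
  refine mem_of_decomp _ hgN huN ?_ ?_ j hj hαh hcop
  · rw [mem_autGroup_iff E hPT]
    exact mem_of_ec hg (fun _ => rfl)
  · rintro v hv β hβ
    have hβE := (mem_autGroup_iff E hPT β).1 hβ
    obtain ⟨k, hk, hβk⟩ := exists_ec_of_mem hsub hβE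
    rw [mem_autGroup_iff E hPT]
    have hvk : EC E P ((v : G) * k * (v : G)⁻¹) := by
      rcases hv with rfl | rfl
      · exact (nData S E hE).inv huT hk hu3
      · refine (nData S E hE).inv (n := u⁻¹) (fun t ht => ?_) hk (fun y hy => ?_)
        · have := inv_conj_mem_of_normalizer huTN ht
          simpa using this
        · have := huP y hy
          simpa using this
    exact mem_of_ec hvk (fun x => conj_aut_apply v β k hβk x)

end main

end NSub
end Cfsg.Agent.Lib.Helper84
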