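import Mathlib
import Cfsg.Agent.Lib.Helper84.NSub6

set_option autoImplicit false
set_option linter.unusedSectionVars false
set_option linter.style.haveILetI false

/-!
# Normal subsystems of the fusion system of a group of characteristic `p`: the main theorem
-/

namespace Cfsg.Agent.Lib.Helper84
namespace NSub

open Cfsg Cfsg.FusionSystem
open Cfsg.Agent.Lib.Helper85 (IsSylIn)

variable {G : Type*} [Group G] [Finite G] {p : ℕ} [Fact p.Prime] (S : Sylow p G) {T : Subgroup G}
  (E : FusionSystem T)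

/-- existence: the fusion system of `Hsub` on `T` is the given normal subsystem. -/
theorem hom_eq (hG : Subgroup.centralizer ((pCore p G : Subgroup G) : Set G) ≤ pCore p G)
    (hE : E.IsNormalIn (groupFusionSystem (S : Subgroup G)) p) (P : Subgroup G) :
    E.Hom P = (fusionSystemOfSubgroup (Hsub (nData S E hE)) T (T_le_Hsub (nData S E hE))).Hom P := by
  have hsat := hE.1.1
  have hTS : T ≤ (S : Subgroup G) := (nData S E hE).hTS
  have hT : IsPGroup p T := S.isPGroup'.to_le hTS
  have hN := QT_normal (nData S E hE)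
  have h1 : E ≤ fusionSystemOfSubgroup (Hsub (nData S E hE)) T (T_le_Hsub (nData S E hE)) :=
    le_of_pprime_aut hT E _ hsat (QT_isNormal S E hE)
      (fun P hQP hPT α hα hcop => aut_E_le S E hG hE hQP hPT hα hcop)
  have h2 : fusionSystemOfSubgroup (Hsub (nData S E hE)) T (T_le_Hsub (nData S E hE)) ≤ E :=
    le_of_pprime_aut hT _ E
      (Helper85.rel_isSaturated (T_le_Hsub (nData S E hE)) (isSylIn_Hsub hG (nData S E hE)))
      (QT_isNormal_rel hN inf_le_left (T_le_Hsub (nData S E hE)))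
      (fun P hQP hPT α hα hcop => aut_H_le S E hG hE hQP hPT hα hcop)
  exact Set.Subset.antisymm (h1 P) (h2 P)

/-- uniqueness. -/
theorem unique_of (hG : Subgroup.centralizer ((pCore p G : Subgroup G) : Set G) ≤ pCore p G)
    (hE : E.IsNormalIn (groupFusionSystem (S : Subgroup G)) p) {H' : Subgroup G} (hTH' : T ≤ H')
    (hH'n : H'.Normal) (hsyl' : IsSylIn p T H')
    (hEq : ∀ P : Subgroup G, E.Hom P = (fusionSystemOfSubgroup H' T hTH').Hom P) :
    H' = Hsub (nData S E hE) := by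
  have hN := QT_normal (nData S E hE)
  have hQ := pCore_normal p G
  have hTS : T ≤ (S : Subgroup G) := (nData S E hE).hTS
  have hU1 : H' ⊓ (S : Subgroup G) ≤ T := by
    have hp : IsPGroup p (H' ⊓ (S : Subgroup G) : Subgroup G) := S.isPGroup'.to_le inf_le_right
    have hcard := Helper85.IsSylIn.card_le hsyl' hTH' hp (Subgroup.card_dvd_of_le inf_le_left)
    have hle : T ≤ H' ⊓ (S : Subgroup G) := le_inf hTH' hTS
    exact (Subgroup.eq_of_le_of_card_ge hle hcard).ge
  have hU2 : H' ≤ H1 (nData S E hE) := by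
    intro h hh
    refine ⟨?_, ?_⟩
    · show conjHom (T ⊓ pCore p G) h ∈ E.Hom (T ⊓ pCore p G)
      rw [hEq]
      exact ⟨inf_le_left, fun x => (hN.conj_mem x x.2 h).1, h, hh, fun x => rfl⟩
    · intro q hq
      have h1 : h * q * h⁻¹ * q⁻¹ ∈ pCore p G :=
        Subgroup.mul_mem _ (hQ.conj_mem q hq h) (Subgroup.inv_mem _ hq)
      have h2 : h * q * h⁻¹ * q⁻¹ ∈ H' := by
        have h3 := H'.mul_mem hh (hH'n.conj_mem h⁻¹ (H'.inv_mem hh) q)
        have e : h * (q * h⁻¹ * q⁻¹) = h * q * h⁻¹ * q⁻¹ := by group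
        rwa [e] at h3
      exact ⟨hU1 ⟨h2, pCore_le_sylow p S h1⟩, h1⟩
  have hU3 : Rsub (nData S E hE) ≤ H' := by
    apply Rsub_le_of_forall
    intro g hg hcop
    have hgE : conjHom (T ⊓ pCore p G) g ∈ E.Hom (T ⊓ pCore p G) := hg.1
    rw [hEq] at hgE
    obtain ⟨-, -, h', hh', hgh'⟩ := hgE
    have hdD : h'⁻¹ * g ∈ pCore p G := by
      apply mem_pCore_of_D hG (nData S E hE)
        (Subgroup.mul_mem _ (Subgroup.inv_mem _ (hU2 hh').2) hg.2)
      intro x hx
      have h1 : g * x * g⁻¹ = h' * x * h'⁻¹ := hgh' ⟨x, hx⟩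
      calc h'⁻¹ * g * x = h'⁻¹ * (g * x * g⁻¹) * g := by group
        _ = h'⁻¹ * (h' * x * h'⁻¹) * g := by rw [h1]
        _ = x * (h'⁻¹ * g) := by group
    haveI := hH'n
    have hh1 : QuotientGroup.mk' H' h' = 1 := (QuotientGroup.eq_one_iff h').mpr hh'
    have e : QuotientGroup.mk' H' g = QuotientGroup.mk' H' (h'⁻¹ * g) := by
      rw [map_mul, map_inv, hh1, inv_one, one_mul]
    obtain ⟨k, hk⟩ := (IsPGroup.iff_orderOf.mp (pCore_isPGroup p G)) ⟨_, hdD⟩
    have h1 : (QuotientGroup.mk' H' g) ^ (p ^ k) = 1 := by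
      rw [e, ← map_pow]
      have h8 := pow_orderOf_eq_one (⟨_, hdD⟩ : pCore p G)
      rw [hk] at h8
      have h9 : (h'⁻¹ * g) ^ (p ^ k) = 1 := congrArg Subtype.val h8
      rw [h9, map_one]
    have h2 : (QuotientGroup.mk' H' g) ^ (orderOf g) = 1 := by
      rw [← map_pow, pow_orderOf_eq_one, map_one]
    have h3 := Helper85.ConsNormal.eq_one_of_pow_coprime h2 h1 (Nat.Coprime.pow_right k hcop)
    exact (QuotientGroup.eq_one_iff g).mp h3
  apply le_antisymm
  · intro h hh
    have h1 := H1_le_sup (nData S E hE) (hU2 hh)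
    haveI := Rsub_normal (nData S E hE)
    have h2 : h ∈ ((((S : Subgroup G) ⊓ H1 (nData S E hE)) ⊔ Rsub (nData S E hE) : Subgroup G) :
        Set G) := h1
    rw [Subgroup.mul_normal] at h2
    obtain ⟨s, hs, r, hr, rfl⟩ := h2
    have hsH' : s ∈ H' := by
      have h3 := H'.mul_mem hh (H'.inv_mem (hU3 hr))
      have e : s * r * r⁻¹ = s := by group
      rwa [e] at h3
    exact Subgroup.mul_mem _ (T_le_Hsub _ (hU1 ⟨hsH', hs.1⟩)) (Rsub_le_Hsub _ hr)
  · exact sup_le hTH' hU3

/-- normal subsystems of the fusion system of a group of characteristic `p` are exactly the fusion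
systems of its normal subgroups, on their Sylow subgroups. -/
theorem main (hG : Subgroup.centralizer ((pCore p G : Subgroup G) : Set G) ≤ pCore p G)
    (hE : E.IsNormalIn (groupFusionSystem (S : Subgroup G)) p) :
    ∃ H : Subgroup G, (∃ hTH : T ≤ H, H.Normal ∧
      (∃ R : Sylow p H, (R : Subgroup H) = T.subgroupOf H) ∧
        ∀ P : Subgroup G, E.Hom P = (fusionSystemOfSubgroup H T hTH).Hom P) ∧
      ∀ H' : Subgroup G, (∃ hTH' : T ≤ H', H'.Normal ∧
        (∃ R : Sylow p H', (R : Subgroup H') = T.subgroupOf H') ∧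
          ∀ P : Subgroup G, E.Hom P = (fusionSystemOfSubgroup H' T hTH').Hom P) → H' = H := by
  refine ⟨Hsub (nData S E hE), ⟨T_le_Hsub _, Hsub_normal _, isSylIn_Hsub hG _,
    hom_eq S E hG hE⟩, ?_⟩
  rintro H' ⟨hTH', hH'n, hsyl', hEq⟩
  exact unique_of S E hG hE hTH' hH'n hsyl' hEq

end NSub
end Cfsg.Agent.Lib.Helper84
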