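import Mathlib
import Cfsg.Prelude.Def_FusionSystem
import Cfsg.Agent.Lib.Helper85.Realized
import Cfsg.Agent.Lib.Helper88.FusBasic
import Cfsg.Agent.Lib.Helper84.KNormalizer
import Cfsg.Agent.Lib.Helper84.PPrimeRes1

set_option autoImplicit false
set_option linter.style.haveILetI false

/-!
# Fusion systems realized through a homomorphism: subsystems of subgroups

For `ι : S →* G` injective, a subgroup `T ≤ S` and a subgroup `K` of `G` containing the image of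
`T`, `RSys ι _ T _ K _` is the fusion system over `T` of the maps that, read through `ι`, are
conjugations by elements of `K`.  It is realized by the restriction `resHom` of `ι`.
-/

namespace Cfsg.Agent.Lib.Helper84.PSolv

open Cfsg Cfsg.FusionSystem Cfsg.Agent.Lib.Helper84
open Cfsg.Agent.Lib.Helper88 (Mor extFun extFun_mem extFun_apply img mor_of_hom hom_of_mor mor_conj mor_id)

variable {Ω : Type*} [Group Ω] {S : Subgroup Ω} {G : Type*} [Group G]

/-- extension by `1` of a homomorphism defined on `S`. -/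
noncomputable def iext (ι : S →* G) : Ω → G :=
  fun x => by classical exact if h : x ∈ S then ι ⟨x, h⟩ else 1

theorem iext_mem (ι : S →* G) {x : Ω} (hx : x ∈ S) : iext ι x = ι ⟨x, hx⟩ := by
  unfold iext
  simp [hx]

theorem iext_mul (ι : S →* G) {x y : Ω} (hx : x ∈ S) (hy : y ∈ S) :
    iext ι (x * y) = iext ι x * iext ι y := by
  rw [iext_mem ι hx, iext_mem ι hy, iext_mem ι (S.mul_mem hx hy), ← map_mul]
  rfl

theorem iext_inv (ι : S →* G) {x : Ω} (hx : x ∈ S) : iext ι x⁻¹ = (iext ι x)⁻¹ := by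
  rw [iext_mem ι hx, iext_mem ι (S.inv_mem hx), ← map_inv]
  rfl

theorem iext_conj (ι : S →* G) {s x : Ω} (hs : s ∈ S) (hx : x ∈ S) :
    iext ι (s * x * s⁻¹) = iext ι s * iext ι x * (iext ι s)⁻¹ := by
  rw [iext_mul ι (S.mul_mem hs hx) (S.inv_mem hs), iext_mul ι hs hx, iext_inv ι hs]

theorem iext_inj {ι : S →* G} (hinj : Function.Injective ι) {x y : Ω} (hx : x ∈ S) (hy : y ∈ S)
    (h : iext ι x = iext ι y) : x = y := by
  rw [iext_mem ι hx, iext_mem ι hy] at h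
  exact congrArg Subtype.val (hinj h)

theorem iext_mem_range (ι : S →* G) {x : Ω} (hx : x ∈ S) : iext ι x ∈ ι.range := by
  rw [iext_mem ι hx]
  exact ⟨_, rfl⟩

/-! ### Realized systems, at the level of functions -/

theorem realized_mor_elim {F : FusionSystem S} {ι : S →* G} (hreal : F.IsRealizedBy ι)
    {P : Subgroup Ω} {f : Ω → Ω} (hf : Mor F P f) :
    ∃ g : G, ∀ x ∈ P, iext ι (f x) = g * iext ι x * g⁻¹ := by
  have hP := hf.le
  obtain ⟨φ, hφ, hφf⟩ := hf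
  have hφS := (F.le_of_mem hφ).2
  obtain ⟨g, hg⟩ := (hreal.2 P hP φ hφS).1 hφ
  refine ⟨g, fun x hx => ?_⟩
  have h1 := hg ⟨x, hx⟩
  rw [← hφf ⟨x, hx⟩, iext_mem ι (hφS ⟨x, hx⟩), iext_mem ι (hP hx)]
  exact h1

theorem realized_exists_mor {F : FusionSystem S} {ι : S →* G} (hreal : F.IsRealizedBy ι)
    {P : Subgroup Ω} (hP : P ≤ S) (g : G) (hg : ∀ x ∈ P, g * iext ι x * g⁻¹ ∈ ι.range) :
    ∃ f, Mor F P f ∧ ∀ x ∈ P, iext ι (f x) = g * iext ι x * g⁻¹ := by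
  have hg' : ∀ x : P, g * ι ⟨x, hP x.2⟩ * g⁻¹ ∈ ι.range := fun x => by
    have h1 := hg x x.2
    rwa [iext_mem ι (hP x.2)] at h1
  obtain ⟨ψ, hψS, hψ⟩ := Helper85.exists_lift_conj hreal.1 hP g hg'
  have hψF : ψ ∈ F.Hom P := (hreal.2 P hP ψ hψS).2 ⟨g, hψ⟩
  refine ⟨extFun ψ, mor_of_hom F hψF, fun x hx => ?_⟩
  rw [extFun_mem ψ hx, iext_mem ι (hψS ⟨x, hx⟩), iext_mem ι (hP hx)]
  exact hψ ⟨x, hx⟩

theorem realized_mor_intro {F : FusionSystem S} {ι : S →* G} (hreal : F.IsRealizedBy ι)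
    {P : Subgroup Ω} (hP : P ≤ S) {f : Ω → Ω} (hfS : ∀ x ∈ P, f x ∈ S) (g : G)
    (hg : ∀ x ∈ P, iext ι (f x) = g * iext ι x * g⁻¹) : Mor F P f := by
  obtain ⟨f₀, hf₀, hf₀g⟩ := realized_exists_mor hreal hP g (fun x hx => by
    rw [← hg x hx]
    exact iext_mem_range ι (hfS x hx))
  refine hf₀.congr (fun x hx => ?_)
  exact iext_inj hreal.1 (hf₀.mem_S hx) (hfS x hx) (by rw [hf₀g x hx, hg x hx])

/-! ### The system of a subgroup -/

/-- the fusion system over `T` of the maps that are, through `ι`, conjugations by elements of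
`K`. -/
def RSys (ι : S →* G) (hinj : Function.Injective ι) (T : Subgroup Ω) (hTS : T ≤ S)
    (K : Subgroup G) (hTK : ∀ x ∈ T, iext ι x ∈ K) : FusionSystem T where
  Hom P := {φ | P ≤ T ∧ (∀ x : P, φ x ∈ T) ∧
    ∃ k ∈ K, ∀ x : P, iext ι (φ x) = k * iext ι (x : Ω) * k⁻¹}
  le_of_mem h := ⟨h.1, h.2.1⟩
  injective_of_mem := by
    rintro P φ ⟨hP, hφT, k, -, hk⟩ a b hab
    have h1 : iext ι (a : Ω) = iext ι (b : Ω) := by
      have h2 : k * iext ι (a : Ω) * k⁻¹ = k * iext ι (b : Ω) * k⁻¹ := by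
        rw [← hk a, ← hk b, hab]
      exact mul_left_cancel (mul_right_cancel h2)
    exact Subtype.ext (iext_inj hinj (hTS (hP a.2)) (hTS (hP b.2)) h1)
  conj_mem := by
    intro P g hP hg
    refine ⟨hP, fun x => T.mul_mem (T.mul_mem hg (hP x.2)) (T.inv_mem hg), iext ι g, hTK g hg,
      fun x => ?_⟩
    show iext ι (g * (x : Ω) * g⁻¹) = _
    exact iext_conj ι (hTS hg) (hTS (hP x.2))
  comp_mem := by
    rintro P Q φ ψ ⟨hP, hφT, k, hk, hφ⟩ ⟨hQ, hψT, l, hl, hψ⟩ h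
    refine ⟨hP, fun x => hψT _, l * k, K.mul_mem hl hk, fun x => ?_⟩
    show iext ι (ψ (φ.codRestrict Q h x)) = _
    rw [hψ]
    show l * iext ι (φ x) * l⁻¹ = _
    rw [hφ, mul_inv_rev]
    simp only [mul_assoc]
  inv_mem := by
    rintro P φ ⟨hP, hφT, k, hk, hφ⟩
    have hφinj : Function.Injective φ := by
      intro a b hab
      have h1 : iext ι (a : Ω) = iext ι (b : Ω) := by
        have h2 : k * iext ι (a : Ω) * k⁻¹ = k * iext ι (b : Ω) * k⁻¹ := by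
          rw [← hφ a, ← hφ b, hab]
        exact mul_left_cancel (mul_right_cancel h2)
      exact Subtype.ext (iext_inj hinj (hTS (hP a.2)) (hTS (hP b.2)) h1)
    have hsymm : ∀ x : P, (MonoidHom.ofInjective hφinj).symm ⟨φ x, ⟨x, rfl⟩⟩ = x := by
      intro x
      rw [MulEquiv.symm_apply_eq]
      exact Subtype.ext (MonoidHom.ofInjective_apply hφinj).symm
    refine ⟨P.subtype.comp (MonoidHom.ofInjective hφinj).symm.toMonoidHom, ⟨?_, ?_, k⁻¹,
      K.inv_mem hk, ?_⟩, ?_⟩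
    · rintro _ ⟨x, rfl⟩
      exact hφT x
    · intro y
      exact hP (Subtype.property _)
    · rintro ⟨_, x, rfl⟩
      show iext ι (((MonoidHom.ofInjective hφinj).symm ⟨φ x, ⟨x, rfl⟩⟩ : P) : Ω) = _
      rw [hsymm x]
      show iext ι (x : Ω) = k⁻¹ * iext ι (φ x) * k⁻¹⁻¹
      rw [hφ x]
      group
    · intro x
      show (((MonoidHom.ofInjective hφinj).symm ⟨φ x, ⟨x, rfl⟩⟩ : P) : Ω) = x
      rw [hsymm x]

theorem mem_rSys_iff {ι : S →* G} {hinj : Function.Injective ι} {T : Subgroup Ω} {hTS : T ≤ S}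
    {K : Subgroup G} {hTK : ∀ x ∈ T, iext ι x ∈ K} {P : Subgroup Ω} {φ : P →* Ω} :
    φ ∈ (RSys ι hinj T hTS K hTK).Hom P ↔ P ≤ T ∧ (∀ x : P, φ x ∈ T) ∧
      ∃ k ∈ K, ∀ x : P, iext ι (φ x) = k * iext ι (x : Ω) * k⁻¹ := Iff.rfl

/-- the restriction of `ι` to `T`, with values in `K`. -/
def resHom (ι : S →* G) (T : Subgroup Ω) (hTS : T ≤ S) (K : Subgroup G)
    (hTK : ∀ x ∈ T, iext ι x ∈ K) : T →* K :=
  (ι.comp (Subgroup.inclusion hTS)).codRestrict K (fun x => by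
    have h1 := hTK x x.2
    rw [iext_mem ι (hTS x.2)] at h1
    exact h1)

theorem resHom_coe (ι : S →* G) (T : Subgroup Ω) (hTS : T ≤ S) (K : Subgroup G)
    (hTK : ∀ x ∈ T, iext ι x ∈ K) (x : T) :
    ((resHom ι T hTS K hTK x : K) : G) = iext ι (x : Ω) := by
  rw [iext_mem ι (hTS x.2)]
  rfl

theorem rSys_realized (ι : S →* G) (hinj : Function.Injective ι) (T : Subgroup Ω) (hTS : T ≤ S)
    (K : Subgroup G) (hTK : ∀ x ∈ T, iext ι x ∈ K) :
    (RSys ι hinj T hTS K hTK).IsRealizedBy (resHom ι T hTS K hTK) := by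
  refine ⟨?_, fun P hP φ hφ => ?_⟩
  · intro x y hxy
    have h1 : iext ι (x : Ω) = iext ι (y : Ω) := by
      rw [← resHom_coe ι T hTS K hTK x, ← resHom_coe ι T hTS K hTK y, hxy]
    exact Subtype.ext (iext_inj hinj (hTS x.2) (hTS y.2) h1)
  · constructor
    · rintro ⟨-, -, k, hk, hφk⟩
      refine ⟨⟨k, hk⟩, fun x => Subtype.ext ?_⟩
      show ((resHom ι T hTS K hTK ⟨φ x, hφ x⟩ : K) : G) =
        k * ((resHom ι T hTS K hTK ⟨x, hP x.2⟩ : K) : G) * k⁻¹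
      rw [resHom_coe, resHom_coe]
      exact hφk x
    · rintro ⟨k, hk⟩
      refine ⟨hP, hφ, k, k.2, fun x => ?_⟩
      have h1 := congrArg Subtype.val (hk x)
      have h2 : ((resHom ι T hTS K hTK ⟨φ x, hφ x⟩ : K) : G) =
          k * ((resHom ι T hTS K hTK ⟨x, hP x.2⟩ : K) : G) * (k : G)⁻¹ := h1
      rw [resHom_coe, resHom_coe] at h2
      exact h2

theorem mem_range_resHom (ι : S →* G) (T : Subgroup Ω) (hTS : T ≤ S) (K : Subgroup G)
    (hTK : ∀ x ∈ T, iext ι x ∈ K) (y : K) :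
    y ∈ (resHom ι T hTS K hTK).range ↔ ∃ x ∈ T, iext ι x = (y : G) := by
  constructor
  · rintro ⟨x, rfl⟩
    exact ⟨x, x.2, (resHom_coe ι T hTS K hTK x).symm⟩
  · rintro ⟨x, hx, hxy⟩
    exact ⟨⟨x, hx⟩, Subtype.ext ((resHom_coe ι T hTS K hTK ⟨x, hx⟩).trans hxy)⟩

theorem rSys_mor_iff {F : FusionSystem S} {ι : S →* G} (hreal : F.IsRealizedBy ι)
    {T : Subgroup Ω} {hTS : T ≤ S} {K : Subgroup G} {hTK : ∀ x ∈ T, iext ι x ∈ K}
    {P : Subgroup Ω} {f : Ω → Ω} :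
    Mor (RSys ι hreal.1 T hTS K hTK) P f ↔ P ≤ T ∧ (∀ x ∈ P, f x ∈ T) ∧
      ∃ k ∈ K, ∀ x ∈ P, iext ι (f x) = k * iext ι x * k⁻¹ := by
  constructor
  · rintro ⟨φ, ⟨hP, hφT, k, hk, hφk⟩, hφf⟩
    refine ⟨hP, fun x hx => ?_, k, hk, fun x hx => ?_⟩
    · rw [← hφf ⟨x, hx⟩]
      exact hφT ⟨x, hx⟩
    · rw [← hφf ⟨x, hx⟩]
      exact hφk ⟨x, hx⟩
  · rintro ⟨hP, hfT, k, hk, hfk⟩
    have hm : Mor F P f := realized_mor_intro hreal (hP.trans hTS) (fun x hx => hTS (hfT x hx)) k hfk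
    obtain ⟨φ, -, hφf⟩ := hm
    refine ⟨φ, ⟨hP, fun x => ?_, k, hk, fun x => ?_⟩, hφf⟩
    · rw [hφf]
      exact hfT x x.2
    · rw [hφf]
      exact hfk x x.2

/-! ### Lifting automorphisms of prime power order and of order prime to `p` -/

theorem conj_pow_iterate (ι : S →* G) {P : Subgroup Ω} (hP : P ≤ S) {f : Ω → Ω}
    (hfP : ∀ x ∈ P, f x ∈ P) {g : G} (hg : ∀ x ∈ P, iext ι (f x) = g * iext ι x * g⁻¹) (n : ℕ) :
    ∀ x ∈ P, iext ι (f^[n] x) = g ^ n * iext ι x * (g ^ n)⁻¹ := by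
  induction n with
  | zero => intro x hx; simp
  | succ n ih =>
    intro x hx
    rw [Function.iterate_succ_apply', hg _ (PPrimeRes.iterate_mem hfP n x hx), ih x hx, pow_succ']
    group

theorem aut_conj_pow (ι : S →* G) {P : Subgroup Ω} (hP : P ≤ S) (α : MulAut P) {g : G}
    (hg : ∀ x ∈ P, iext ι (autFun α x) = g * iext ι x * g⁻¹) (n : ℕ) :
    ∀ x ∈ P, iext ι (autFun (α ^ n) x) = g ^ n * iext ι x * (g ^ n)⁻¹ := by
  intro x hx
  rw [PPrimeRes.autFun_pow_iterate α n x hx]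
  exact conj_pow_iterate ι hP (fun y hy => autFun_mem_R α hy) hg n x hx

/-- an automorphism of `p`-power order induced by conjugation is induced by an element of
`p`-power order. -/
theorem exists_p_lift_r [Finite G] {p : ℕ} [Fact p.Prime] (ι : S →* G) {P : Subgroup Ω}
    (hP : P ≤ S) (α : MulAut P) {k : ℕ} (hα : orderOf α = p ^ k) {g : G}
    (hg : ∀ x ∈ P, iext ι (autFun α x) = g * iext ι x * g⁻¹) :
    ∃ g' : G, (∃ j : ℕ, orderOf g' = p ^ j) ∧
      ∀ x ∈ P, iext ι (autFun α x) = g' * iext ι x * g'⁻¹ := by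
  have hp : p.Prime := Fact.out
  have hpos : orderOf g ≠ 0 := (orderOf_pos g).ne'
  obtain ⟨a, m, hm, hgm⟩ := Nat.exists_eq_pow_mul_and_not_dvd hpos p hp.ne_one
  have hcop : m.Coprime (orderOf α) := by
    rw [hα]
    exact Nat.Coprime.pow_right k ((Nat.Prime.coprime_iff_not_dvd hp).2 hm).symm
  obtain ⟨t, ht⟩ := exists_pow_eq_self_of_coprime hcop
  refine ⟨(g ^ m) ^ t, ?_, fun x hx => ?_⟩
  · have h1 : (g ^ m) ^ (p ^ a) = 1 := by
      rw [← pow_mul, mul_comm, ← hgm]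
      exact pow_orderOf_eq_one g
    have h2 : ((g ^ m) ^ t) ^ (p ^ a) = 1 := by
      rw [← pow_mul, mul_comm t, pow_mul, h1, one_pow]
    obtain ⟨j, -, hj⟩ := (Nat.dvd_prime_pow hp).1 (orderOf_dvd_of_pow_eq_one h2)
    exact ⟨j, hj⟩
  · have h3 := aut_conj_pow ι hP α hg (m * t) x hx
    rw [pow_mul, ht, pow_mul] at h3
    exact h3

/-- an automorphism of order prime to `p` induced by conjugation is induced by an element of
order prime to `p`. -/
theorem exists_pprime_lift_r [Finite G] {p : ℕ} [Fact p.Prime] (ι : S →* G) {P : Subgroup Ω}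
    (hP : P ≤ S) (α : MulAut P) (hα : (orderOf α).Coprime p) {g : G}
    (hg : ∀ x ∈ P, iext ι (autFun α x) = g * iext ι x * g⁻¹) :
    ∃ g' : G, (orderOf g').Coprime p ∧
      ∀ x ∈ P, iext ι (autFun α x) = g' * iext ι x * g'⁻¹ := by
  have hp : p.Prime := Fact.out
  have hpos : orderOf g ≠ 0 := (orderOf_pos g).ne'
  obtain ⟨a, m, hm, hgm⟩ := Nat.exists_eq_pow_mul_and_not_dvd hpos p hp.ne_one
  have hcop : (p ^ a).Coprime (orderOf α) := Nat.Coprime.pow_left a hα.symm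
  obtain ⟨t, ht⟩ := exists_pow_eq_self_of_coprime hcop
  refine ⟨(g ^ (p ^ a)) ^ t, ?_, fun x hx => ?_⟩
  · have h1 : orderOf (g ^ (p ^ a)) = m := by
      rw [orderOf_pow, hgm]
      have hg' : Nat.gcd (p ^ a * m) (p ^ a) = p ^ a := Nat.gcd_eq_right (dvd_mul_right _ _)
      rw [hg', Nat.mul_div_cancel_left _ (pow_pos hp.pos a)]
    have h2 : orderOf ((g ^ (p ^ a)) ^ t) ∣ m := h1 ▸ orderOf_pow_dvd t
    exact Nat.Coprime.coprime_dvd_left h2 ((Nat.Prime.coprime_iff_not_dvd hp).2 hm).symm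
  · have h3 := aut_conj_pow ι hP α hg (p ^ a * t) x hx
    rw [pow_mul, ht, pow_mul] at h3
    exact h3

end Cfsg.Agent.Lib.Helper84.PSolv
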