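import Mathlib
import Cfsg.Prelude.Def_Local
import Cfsg.Prelude.Def_Transfer
import Cfsg.Agent.Lib.Helper69.CyclicSylow
import Cfsg.Agent.Lib.Helper63.HallHigman
import Cfsg.Agent.Lib.Helper34.CoreAux
import Cfsg.Agent.Lib.Helper23.Transport
import Cfsg.Agent.Lib.Helper2.Transfer
import Cfsg.Agent.Lib.Helper87.FusionAlperin
import Cfsg.Agent.Lib.Helper84.FusionAlperin

set_option autoImplicit false
set_option linter.style.haveILetI false

/-!
# `p`-soluble groups: the subgroups `O^{p'}(G)` and `O^p(O^{p'}(G))`

`Opp p G` is the subgroup generated by the elements of `p`-power order.  A normal `p`-soluble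
subgroup with `p`-soluble quotient gives a `p`-soluble group (`psolv_ext`); hence `G` is
`p`-soluble as soon as `O^p(O^{p'}(G))` is (`psolv_of_res`), and for a nontrivial `p`-soluble group
`O^p(O^{p'}(G))` has smaller order (`card_res_lt`).
-/

namespace Cfsg.Agent.Lib.Helper84.PSolv

open Cfsg

universe u

/-- `O^{p'}(G)`: the subgroup generated by the elements of `p`-power order. -/
def Opp (p : ℕ) (G : Type*) [Group G] : Subgroup G :=
  Subgroup.closure {g : G | ∃ k : ℕ, orderOf g = p ^ k}

theorem opp_normal (p : ℕ) (G : Type*) [Group G] : (Opp p G).Normal := by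
  constructor
  intro n hn g
  unfold Opp at hn ⊢
  induction hn using Subgroup.closure_induction with
  | mem x hx =>
    obtain ⟨k, hk⟩ := hx
    apply Subgroup.subset_closure
    refine ⟨k, ?_⟩
    rw [← hk]
    exact (SemiconjBy.orderOf_eq g (by unfold SemiconjBy; group)).symm
  | one =>
    rw [mul_one, mul_inv_cancel]
    exact Subgroup.one_mem _
  | mul a b _ _ ha hb =>
    have e : g * (a * b) * g⁻¹ = (g * a * g⁻¹) * (g * b * g⁻¹) := by group
    rw [e]
    exact Subgroup.mul_mem _ ha hb
  | inv a _ ha =>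
    have e : g * a⁻¹ * g⁻¹ = (g * a * g⁻¹)⁻¹ := by group
    rw [e]
    exact Subgroup.inv_mem _ ha

theorem mem_opp_of_order {p : ℕ} {G : Type*} [Group G] {g : G} {k : ℕ} (h : orderOf g = p ^ k) :
    g ∈ Opp p G :=
  Subgroup.subset_closure ⟨k, h⟩

/-- elements of `p`-power order lie in every normal subgroup of index prime to `p`. -/
theorem mem_of_pow_of_index_coprime {X : Type*} [Group X] [Finite X] (p : ℕ)
    (N : Subgroup X) [N.Normal] (hidx : N.index.Coprime p) (y : X) {k : ℕ}
    (hy : orderOf y = p ^ k) : y ∈ N := by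
  have h6 : orderOf (QuotientGroup.mk y : X ⧸ N) ∣ N.index := by
    rw [Subgroup.index_eq_card]
    exact orderOf_dvd_natCard _
  have h7 : orderOf (QuotientGroup.mk y : X ⧸ N) ∣ p ^ k := by
    rw [← hy]
    exact orderOf_map_dvd (QuotientGroup.mk' N) y
  have h8 : orderOf (QuotientGroup.mk y : X ⧸ N) = 1 :=
    Nat.eq_one_of_dvd_coprimes (Nat.Coprime.pow_right k hidx) h6 h7
  exact (QuotientGroup.eq_one_iff y).mp (orderOf_eq_one_iff.mp h8)

theorem opp_le_of_index_coprime {X : Type*} [Group X] [Finite X] (p : ℕ)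
    (N : Subgroup X) [N.Normal] (hidx : N.index.Coprime p) : Opp p X ≤ N := by
  unfold Opp
  rw [Subgroup.closure_le]
  rintro y ⟨k, hk⟩
  exact mem_of_pow_of_index_coprime p N hidx y hk

theorem pResidual_le_of_index_pow {X : Type*} [Group X] [Finite X] (p : ℕ) [Fact p.Prime]
    (N : Subgroup X) [N.Normal] (hidx : ∃ m : ℕ, N.index = p ^ m) : pResidual p X ≤ N := by
  unfold pResidual
  rw [Subgroup.closure_le]
  intro y hy
  exact Helper69.mem_of_coprime_of_index_pow p N hidx y hy

/-- every `p`-subgroup lies in `O^{p'}(G)`. -/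
theorem le_opp_of_isPGroup {p : ℕ} [Fact p.Prime] {G : Type*} [Group G] {P : Subgroup G}
    (hP : IsPGroup p P) : P ≤ Opp p G := by
  intro x hx
  obtain ⟨k, hk⟩ := hP ⟨x, hx⟩
  have h1 : x ^ p ^ k = 1 := by
    have h2 := congrArg Subtype.val hk
    simpa using h2
  obtain ⟨j, -, hj⟩ := (Nat.dvd_prime_pow (Fact.out : p.Prime)).1 (orderOf_dvd_of_pow_eq_one h1)
  exact mem_opp_of_order hj

theorem opp_index_coprime (p : ℕ) [Fact p.Prime] (G : Type*) [Group G] [Finite G] :
    (Opp p G).index.Coprime p := by
  obtain ⟨P⟩ : Nonempty (Sylow p G) := inferInstance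
  have h1 : (Opp p G).index ∣ (P : Subgroup G).index :=
    Subgroup.index_dvd_of_le (le_opp_of_isPGroup P.isPGroup')
  have h2 : ¬ p ∣ (Opp p G).index := fun h => P.not_dvd_index (h.trans h1)
  exact ((Nat.Prime.coprime_iff_not_dvd (Fact.out : p.Prime)).2 h2).symm

theorem pResidual_index_pow (p : ℕ) [Fact p.Prime] (G : Type*) [Group G] [Finite G] :
    ∃ m : ℕ, (pResidual p G).index = p ^ m := by
  haveI : (pResidual p G).Normal := Helper2.pResidual_normal p
  have h1 : IsPGroup p (G ⧸ pResidual p G) :=
    Helper2.isPGroup_quotient_of_pResidual_le p (pResidual p G) le_rfl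
  obtain ⟨m, hm⟩ := h1.exists_card_eq
  exact ⟨m, by rw [Subgroup.index_eq_card]; exact hm⟩

/-- a group whose order is a power of `p` or prime to `p` is `p`-soluble. -/
theorem isPSolvable_of_card {X : Type*} [Group X] (p : ℕ)
    (h : (∃ m : ℕ, Nat.card X = p ^ m) ∨ (Nat.card X).Coprime p) : IsPSolvable p X := by
  refine ⟨1, fun i => if i = 0 then ⊥ else ⊤, rfl, rfl, ?_, ?_, ?_⟩
  · intro i j hij
    by_cases hi : i = 0
    · simp [hi]
    · have hj : j ≠ 0 := by
        rintro rfl
        exact hi (Fin.le_zero_iff.1 hij)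
      simp [hi, hj]
  · intro i
    by_cases hi : i = 0
    · simp only [hi, if_true]; infer_instance
    · simp only [hi, if_false]; infer_instance
  · intro i
    have hi : i = 0 := Subsingleton.elim _ _
    subst hi
    have h1 : ((⊥ : Subgroup X)).relIndex ⊤ = Nat.card X := by
      rw [Subgroup.relIndex_top_right, Subgroup.index_bot]
    show (∃ m : ℕ, (⊥ : Subgroup X).relIndex ⊤ = p ^ m) ∨ ((⊥ : Subgroup X).relIndex ⊤).Coprime p
    rw [h1]
    exact h

/-- extension: a normal `p`-soluble subgroup with `p`-soluble quotient. -/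
theorem psolv_ext (p : ℕ) [Fact p.Prime] : ∀ n : ℕ, ∀ (X : Type u) [Group X] [Finite X]
    (N : Subgroup X) [N.Normal], Nat.card N ≤ n → IsPSolvable p ↥N → IsPSolvable p (X ⧸ N) →
    IsPSolvable p X := by
  intro n
  induction n using Nat.strong_induction_on with
  | _ n ih =>
    intro X _ _ N hNn hcard hN hQ
    by_cases hbot : N = ⊥
    · subst hbot
      exact Helper69.isPSolvable_of_surj p (QuotientGroup.quotientBot (G := X)).toMonoidHom
        (QuotientGroup.quotientBot (G := X)).surjective hQ
    · haveI : Nontrivial ↥N := (Subgroup.nontrivial_iff_ne_bot N).2 hbot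
      obtain ⟨M₀, hM₀n, hM₀ne, hM₀⟩ := Helper69.exists_normal_of_isPSolv p hN
      obtain ⟨M₁, hM₁char, hM₁ne, hM₁⟩ : ∃ M₁ : Subgroup ↥N, M₁.Characteristic ∧ M₁ ≠ ⊥ ∧
          ((∃ m : ℕ, Nat.card M₁ = p ^ m) ∨ (Nat.card M₁).Coprime p) := by
        rcases hM₀ with hp | hc
        · refine ⟨pCore p ↥N, Helper63.pCore_characteristic' p ↥N, ?_, Or.inl ?_⟩
          · intro h
            apply hM₀ne
            have h1 := Helper63.le_pCore' hM₀n hp
            rw [h] at h1
            exact le_bot_iff.1 h1
          · exact (Helper87.pCore87_isPGroup p).exists_card_eq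
        · refine ⟨pPrimeCore p ↥N, Helper23.pPrimeCore_characteristic p ↥N, ?_, Or.inr ?_⟩
          · intro h
            apply hM₀ne
            haveI := hM₀n
            have h1 := Helper34.le_pPrimeCore p M₀ hc
            rw [h] at h1
            exact le_bot_iff.1 h1
          · exact Helper34.card_pPrimeCore_coprime p ↥N
      haveI := hM₁char
      haveI hMn : (M₁.map N.subtype).Normal := ConjAct.normal_of_characteristic_of_normal
      have hMN : M₁.map N.subtype ≤ N := by
        rintro _ ⟨x, -, rfl⟩
        exact x.2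
      have hMcard : Nat.card (M₁.map N.subtype) = Nat.card M₁ :=
        Subgroup.card_map_of_injective N.subtype_injective
      have hM : (∃ m : ℕ, Nat.card (M₁.map N.subtype) = p ^ m) ∨
          (Nat.card (M₁.map N.subtype)).Coprime p := by
        rw [hMcard]
        exact hM₁
      haveI hNbar : (N.map (QuotientGroup.mk' (M₁.map N.subtype))).Normal :=
        Subgroup.Normal.map inferInstance _ (QuotientGroup.mk'_surjective _)
      have hsN : IsPSolvable p ↥(N.map (QuotientGroup.mk' (M₁.map N.subtype))) :=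
        Helper69.isPSolvable_of_surj p ((QuotientGroup.mk' (M₁.map N.subtype)).subgroupMap N)
          ((QuotientGroup.mk' (M₁.map N.subtype)).subgroupMap_surjective N) hN
      have hsQ : IsPSolvable p ((X ⧸ M₁.map N.subtype) ⧸
          N.map (QuotientGroup.mk' (M₁.map N.subtype))) :=
        Helper69.isPSolvable_of_surj p
          (QuotientGroup.quotientQuotientEquivQuotient (M₁.map N.subtype) N hMN).symm.toMonoidHom
          (QuotientGroup.quotientQuotientEquivQuotient (M₁.map N.subtype) N hMN).symm.surjective hQ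
      have hlt : Nat.card ↥(N.map (QuotientGroup.mk' (M₁.map N.subtype))) < Nat.card N := by
        classical
        haveI : Fintype ↥N := Fintype.ofFinite _
        haveI : Fintype ↥(N.map (QuotientGroup.mk' (M₁.map N.subtype))) := Fintype.ofFinite _
        rw [Nat.card_eq_fintype_card, Nat.card_eq_fintype_card]
        apply Fintype.card_lt_of_surjective_not_injective
          ((QuotientGroup.mk' (M₁.map N.subtype)).subgroupMap N)
          ((QuotientGroup.mk' (M₁.map N.subtype)).subgroupMap_surjective N)
        intro hinj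
        obtain ⟨x, hx⟩ := (Subgroup.ne_bot_iff_exists_ne_one).1 hM₁ne
        have h1 : (QuotientGroup.mk' (M₁.map N.subtype)).subgroupMap N (x : ↥N) = 1 := by
          apply Subtype.ext
          show (QuotientGroup.mk' (M₁.map N.subtype)) ((x : ↥N) : X) = 1
          rw [QuotientGroup.mk'_apply, QuotientGroup.eq_one_iff]
          exact ⟨(x : ↥N), x.2, rfl⟩
        have h2 : (x : ↥N) = 1 := hinj (h1.trans (map_one _).symm)
        exact hx (Subtype.ext h2)
      have hX' : IsPSolvable p (X ⧸ M₁.map N.subtype) :=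
        ih _ (lt_of_lt_of_le hlt hcard) (X ⧸ M₁.map N.subtype)
          (N.map (QuotientGroup.mk' (M₁.map N.subtype))) le_rfl hsN hsQ
      exact Helper69.isPSolvable_of_quotient p (M₁.map N.subtype) hM hX'

/-- `G` is `p`-soluble as soon as `O^p(O^{p'}(G))` is. -/
theorem psolv_of_res (p : ℕ) [Fact p.Prime] (G : Type u) [Group G] [Finite G]
    (h : IsPSolvable p ↥(pResidual p ↥(Opp p G))) : IsPSolvable p G := by
  haveI : (Opp p G).Normal := opp_normal p G
  haveI : (pResidual p ↥(Opp p G)).Normal := Helper2.pResidual_normal p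
  have h1 : IsPSolvable p ↥(Opp p G) := by
    refine psolv_ext p _ ↥(Opp p G) (pResidual p ↥(Opp p G)) le_rfl h ?_
    apply isPSolvable_of_card
    left
    obtain ⟨m, hm⟩ := pResidual_index_pow p ↥(Opp p G)
    exact ⟨m, by rw [← Subgroup.index_eq_card]; exact hm⟩
  refine psolv_ext p _ G (Opp p G) le_rfl h1 ?_
  apply isPSolvable_of_card
  right
  rw [← Subgroup.index_eq_card]
  exact opp_index_coprime p G

/-- in a nontrivial `p`-soluble group, `O^p(G)` or `O^{p'}(G)` is a proper subgroup. -/
theorem res_or_opp_ne_top (p : ℕ) [Fact p.Prime] (G : Type*) [Group G] [Finite G] [Nontrivial G]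
    (h : IsPSolvable p G) : pResidual p G ≠ ⊤ ∨ Opp p G ≠ ⊤ := by
  by_contra hcon
  push_neg at hcon
  obtain ⟨h1, h2⟩ := hcon
  obtain ⟨n, H, h0, hlast, hmono, hnorm, hfac⟩ := h
  have key : ∀ k : ℕ, ∀ i : Fin (n + 1), (i : ℕ) + k = n → H i = ⊤ := by
    intro k
    induction k with
    | zero =>
      intro i hi
      have : i = Fin.last n := Fin.ext (by simpa using hi)
      rw [this]
      exact hlast
    | succ k ih =>
      intro i hi
      have hin : (i : ℕ) < n := by omega
      have hsucc : H (⟨i, hin⟩ : Fin n).succ = ⊤ := ih _ (by simp; omega)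
      have hcast : (⟨i, hin⟩ : Fin n).castSucc = i := Fin.ext rfl
      haveI := hnorm i
      rcases hfac ⟨i, hin⟩ with ⟨m, hm⟩ | hc
      · rw [hsucc, hcast, Subgroup.relIndex_top_right] at hm
        have h3 := pResidual_le_of_index_pow p (H i) ⟨m, hm⟩
        rw [h1] at h3
        exact top_le_iff.1 h3
      · rw [hsucc, hcast, Subgroup.relIndex_top_right] at hc
        have h3 := opp_le_of_index_coprime p (H i) hc
        rw [h2] at h3
        exact top_le_iff.1 h3
  have h3 := key n 0 (by simp)
  rw [h0] at h3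
  exact bot_ne_top h3

/-- for a nontrivial `p`-soluble group, `O^p(O^{p'}(G))` has smaller order. -/
theorem card_res_lt (p : ℕ) [Fact p.Prime] (G : Type*) [Group G] [Finite G] [Nontrivial G]
    (h : IsPSolvable p G) : Nat.card ↥(pResidual p ↥(Opp p G)) < Nat.card G := by
  have hKH : Nat.card ↥(pResidual p ↥(Opp p G)) ≤ Nat.card ↥(Opp p G) :=
    Subgroup.card_le_card_group _
  rcases res_or_opp_ne_top p G h with h1 | h1
  · -- the image of `O^p(O^{p'}(G))` lies in `O^p(G)`
    have hle : (pResidual p ↥(Opp p G)).map (Opp p G).subtype ≤ pResidual p G := by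
      rw [Subgroup.map_le_iff_le_comap]
      unfold pResidual
      rw [Subgroup.closure_le]
      intro y hy
      apply Subgroup.subset_closure
      show (orderOf ((Opp p G).subtype y)).Coprime p
      rw [Subgroup.subtype_apply, Subgroup.orderOf_coe]
      exact hy
    have hc1 : Nat.card ↥(pResidual p ↥(Opp p G)) =
        Nat.card ↥((pResidual p ↥(Opp p G)).map (Opp p G).subtype) :=
      (Subgroup.card_map_of_injective (Opp p G).subtype_injective).symm
    have hc2 := Subgroup.card_le_of_le hle
    have hc3 : Nat.card ↥(pResidual p G) < Nat.card G := by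
      obtain ⟨g, hg⟩ : ∃ g : G, g ∉ pResidual p G := by
        by_contra hall
        push_neg at hall
        exact h1 (top_le_iff.1 (fun g _ => hall g))
      have h4 := Helper84.card_lt_of_le_of_not_mem (P := pResidual p G) (N := ⊤) le_top
        (Subgroup.mem_top g) hg
      rwa [Subgroup.card_top] at h4
    omega
  · have hc3 : Nat.card ↥(Opp p G) < Nat.card G := by
      obtain ⟨g, hg⟩ : ∃ g : G, g ∉ Opp p G := by
        by_contra hall
        push_neg at hall
        exact h1 (top_le_iff.1 (fun g _ => hall g))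
      have h4 := Helper84.card_lt_of_le_of_not_mem (P := Opp p G) (N := ⊤) le_top
        (Subgroup.mem_top g) hg
      rwa [Subgroup.card_top] at h4
    omega

end Cfsg.Agent.Lib.Helper84.PSolv
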