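import Mathlib
import Cfsg.Prelude.Def_FusionSystem
import Cfsg.Prelude.Def_FusionComponents
import Cfsg.Agent.Lib.Helper84.PSolvA
import Cfsg.Agent.Lib.Helper84.PSolvD
import Cfsg.Agent.Lib.Helper84.Model5
import Cfsg.Agent.Lib.Helper84.FusionSat2
import Cfsg.Agent.Lib.Helper84.SatCrit2
import Cfsg.Agent.Lib.Helper87.FusionMore
import Cfsg.Agent.Lib.Helper49.CharP
import Cfsg.Agent.S5095

set_option autoImplicit false
set_option linter.style.haveILetI false

/-!
# The `p'`-residual subsystem of a constrained system, read in a model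

If `G` is a model of the saturated system `F` (through `ι`), the `p'`-residual subsystem of `F` is
the system of the subgroup `O^{p'}(G)` generated by the elements of `p`-power order, which is a
model of it.
-/

namespace Cfsg.Agent.Lib.Helper84.PSolv

open Cfsg Cfsg.FusionSystem Cfsg.Agent.Lib.Helper84 Cfsg.Agent.Lib.Helper84.SatCrit
open Cfsg.Agent.Lib.Helper88 (Mor extFun extFun_mem extFun_apply img mor_of_hom hom_of_mor mor_conj mor_id)

universe u v

variable {Ω : Type u} [Group Ω] {S : Subgroup Ω} {G : Type v} [Group G]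

theorem iext_mem_opp {p : ℕ} [Fact p.Prime] (hS : IsPGroup p S) (ι : S →* G) {x : Ω}
    (hx : x ∈ S) : iext ι x ∈ Opp p G := by
  rw [iext_mem ι hx]
  obtain ⟨k, hk⟩ := hS ⟨x, hx⟩
  have h1 : (ι ⟨x, hx⟩) ^ p ^ k = 1 := by rw [← map_pow, hk, map_one]
  obtain ⟨j, -, hj⟩ := (Nat.dvd_prime_pow (Fact.out : p.Prime)).1 (orderOf_dvd_of_pow_eq_one h1)
  exact mem_opp_of_order hj

theorem rSys_sub {F : FusionSystem S} {ι : S →* G} (hreal : F.IsRealizedBy ι) (T : Subgroup Ω)
    (hTS : T ≤ S) (K : Subgroup G) (hTK : ∀ x ∈ T, iext ι x ∈ K) :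
    (RSys ι hreal.1 T hTS K hTK).IsSubsystemOf F := by
  rintro P φ ⟨hP, hφT, k, hk, hφk⟩
  have hPS := hP.trans hTS
  have hφS : ∀ x : P, φ x ∈ S := fun x => hTS (hφT x)
  refine (hreal.2 P hPS φ hφS).2 ⟨k, fun x => ?_⟩
  have h1 := hφk x
  rwa [iext_mem ι (hφS x), iext_mem ι (hPS x.2)] at h1

section

variable [Finite S] {p : ℕ} [Fact p.Prime] {F : FusionSystem S} {ι : S →* G}

theorem rSys_pprime_index [Finite G] (hS : IsPGroup p S) (hreal : F.IsRealizedBy ι) :
    (RSys ι hreal.1 S le_rfl (Opp p G) (fun _ hx => iext_mem_opp hS ι hx)).HasPrimeToPIndexIn F p := by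
  refine ⟨rSys_sub hreal S le_rfl _ _, fun P hP => ?_⟩
  rw [Subgroup.map_le_iff_le_comap, Subgroup.closure_le]
  rintro α ⟨k, hk⟩
  show ((α : MulAut P)) ∈ (RSys ι hreal.1 S le_rfl (Opp p G)
    (fun _ hx => iext_mem_opp hS ι hx)).autGroup P
  rw [Helper88.mem_autGroup_iff _ hP]
  have hm : Mor F P (autFun (α : MulAut P)) := autFun_mor F hP α.2
  obtain ⟨g, hg⟩ := realized_mor_elim hreal hm
  have hord : orderOf (α : MulAut P) = p ^ k := by
    rw [Subgroup.orderOf_coe]
    exact hk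
  obtain ⟨g', ⟨j, hj⟩, hg'⟩ := exists_p_lift_r ι hP (α : MulAut P) hord hg
  exact (rSys_mor_iff hreal).2 ⟨hP, fun x hx => hP (autFun_mem_R _ hx), g', mem_opp_of_order hj, hg'⟩

omit [Finite S] in
theorem exists_sylow_resHom [Finite G] (hS : IsPGroup p S) (T₀ : Sylow p G)
    (hT₀ : (T₀ : Subgroup G) = ι.range) :
    ∃ R : Sylow p ↥(Opp p G), (R : Subgroup ↥(Opp p G)) =
      (resHom ι S le_rfl (Opp p G) (fun _ hx => iext_mem_opp hS ι hx)).range := by
  have hle : (T₀ : Subgroup G) ≤ Opp p G := le_opp_of_isPGroup T₀.isPGroup'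
  refine ⟨T₀.subtype hle, ?_⟩
  rw [Sylow.coe_subtype]
  ext y
  rw [Subgroup.mem_subgroupOf, hT₀, mem_range_resHom]
  constructor
  · rintro ⟨x, hx⟩
    exact ⟨x, x.2, by rw [iext_mem ι x.2]; exact hx⟩
  · rintro ⟨x, hx, hxy⟩
    rw [← hxy]
    exact iext_mem_range ι hx

/-- the `p'`-residual subsystem of a system with a model is the system of `O^{p'}` of the
model. -/
theorem pprime_hom_eq (hS : IsPGroup p S) (hF : F.IsSaturated p) (hmod : F.IsModel p G ι)
    {E : FusionSystem S} (hE : F.IsPPrimeResidual p E) (P : Subgroup Ω) :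
    E.Hom P = (RSys ι hmod.2.1.1 S le_rfl (Opp p G) (fun _ hx => iext_mem_opp hS ι hx)).Hom P := by
  classical
  haveI : Finite G := hmod.1
  have hreal := hmod.2.1
  obtain ⟨T₀, hT₀⟩ := hmod.2.2.1
  have hidx := rSys_pprime_index hS hreal
  obtain ⟨R, hR⟩ := exists_sylow_resHom hS T₀ hT₀
  have hsat : (RSys ι hreal.1 S le_rfl (Opp p G) (fun _ hx => iext_mem_opp hS ι hx)).IsSaturated p :=
    Helper85.realized_isSaturated (rSys_realized ι hreal.1 S le_rfl (Opp p G) _) R hR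
  apply Set.Subset.antisymm
  · exact hE.2.2 _ hsat hidx P
  · rintro φ ⟨hP, hφS, h, hh, hφh⟩
    obtain ⟨hQn, hQc⟩ := Model.pre_pCore_normal_centric hmod
    have hQS : Helper85.preSub ι (pCore p G) ≤ S := hQn.1
    have hNC : Model.NC S (Helper85.preSub ι (pCore p G)) := Model.nc_of_normal_centric F hQn hQc
    have M : Model.ModelAt F hNC ι := Model.modelAt_of_isModel hmod hNC rfl
    -- automorphisms induced by `O^{p'}(G)` lie in `Aut_E(Q)`
    have hstep1 : ∀ h ∈ Opp p G, ((M.piHom h : F.autGroup (Helper85.preSub ι (pCore p G))) :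
        MulAut ↥(Helper85.preSub ι (pCore p G))) ∈ E.autGroup (Helper85.preSub ι (pCore p G)) := by
      have hle : Opp p G ≤ ((E.autGroup (Helper85.preSub ι (pCore p G))).subgroupOf
          (F.autGroup (Helper85.preSub ι (pCore p G)))).comap M.piHom := by
        unfold Opp
        rw [Subgroup.closure_le]
        rintro g ⟨k, hk⟩
        rw [SetLike.mem_coe, Subgroup.mem_comap, Subgroup.mem_subgroupOf]
        have h1 : orderOf (M.piHom g) ∣ p ^ k := by
          rw [← hk]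
          exact orderOf_map_dvd M.piHom g
        obtain ⟨j, -, hj⟩ := (Nat.dvd_prime_pow (Fact.out : p.Prime)).1 h1
        exact hE.2.1.2 _ hQS ⟨M.piHom g, Subgroup.subset_closure ⟨j, hj⟩, rfl⟩
      intro h hh
      exact Subgroup.mem_subgroupOf.1 (hle hh)
    have hβE := hstep1 h hh
    have hβspec : ∀ q ∈ Helper85.preSub ι (pCore p G),
        iext ι (autFun ((M.piHom h : F.autGroup (Helper85.preSub ι (pCore p G))) :
          MulAut ↥(Helper85.preSub ι (pCore p G))) q) = h * iext ι q * h⁻¹ := by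
      intro q hq
      have h1 := M.piG_spec h ⟨q, hq⟩
      rw [autFun_mem _ hq, iext_mem ι (hQS (Subtype.property _)), iext_mem ι (hQS hq)]
      exact h1
    generalize ((M.piHom h : F.autGroup (Helper85.preSub ι (pCore p G))) :
      MulAut ↥(Helper85.preSub ι (pCore p G))) = β at hβE hβspec
    have hE1 := hE.1
    have hβm : Mor E (Helper85.preSub ι (pCore p G)) (autFun β) := autFun_mor E hQS hβE
    have hfn : E.IsFullyNormalized (Helper85.preSub ι (pCore p G)) := hNC.fullyNormalized E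
    have hrec : E.IsReceptive (Helper85.preSub ι (pCore p G)) :=
      receptive_of_fullyCentralized p hS E hE1 (fullyCentralized_of_fullyNormalized p hS E hE1 hfn)
    have himg : img (Helper85.preSub ι (pCore p G)) (autFun β) = Helper85.preSub ι (pCore p G) :=
      img_autFun E hQS ⟨β, hβE⟩
    obtain ⟨f', hf', hf'β⟩ := receptive_extend_sup (M := P) hrec hβm himg (by
      intro g hg
      have hgS := hP hg
      have hφg : iext ι (φ ⟨g, hg⟩) = h * iext ι g * h⁻¹ := hφh ⟨g, hg⟩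
      refine ⟨hgS, (Subgroup.mem_inf.1 (hNC.le_norm hgS)).2, φ ⟨g, hg⟩, hφS ⟨g, hg⟩, fun x hx => ?_⟩
      have hgx : g * x * g⁻¹ ∈ Helper85.preSub ι (pCore p G) := hNC.norm g hgS x hx
      apply iext_inj hreal.1 (hQS (autFun_mem_R β hgx))
        (S.mul_mem (S.mul_mem (hφS ⟨g, hg⟩) (hQS (autFun_mem_R β hx))) (S.inv_mem (hφS ⟨g, hg⟩)))
      rw [hβspec _ hgx, iext_conj ι hgS (hQS hx),
        iext_conj ι (hφS ⟨g, hg⟩) (hQS (autFun_mem_R β hx)), hβspec x hx, hφg]
      group)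
    have hQPS : Helper85.preSub ι (pCore p G) ⊔ P ≤ S := sup_le hQS hP
    have hrange : ∀ x ∈ Helper85.preSub ι (pCore p G) ⊔ P, h * iext ι x * h⁻¹ ∈ ι.range := by
      have hle : Helper85.preSub ι (pCore p G) ⊔ P ≤
          Helper85.preSub ι (ι.range.comap (MulAut.conj h).toMonoidHom) := by
        refine sup_le (fun x hx => ?_) (fun x hx => ?_)
        · rw [Helper85.mem_preSub]
          refine ⟨hQS hx, ?_⟩
          rw [Subgroup.mem_comap]
          show h * ι ⟨x, hQS hx⟩ * h⁻¹ ∈ ι.range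
          rw [← iext_mem ι (hQS hx), ← hβspec x hx]
          exact iext_mem_range ι (hQS (autFun_mem_R β hx))
        · rw [Helper85.mem_preSub]
          refine ⟨hP hx, ?_⟩
          rw [Subgroup.mem_comap]
          show h * ι ⟨x, hP hx⟩ * h⁻¹ ∈ ι.range
          have h2 : iext ι (φ ⟨x, hx⟩) = h * iext ι x * h⁻¹ := hφh ⟨x, hx⟩
          rw [← iext_mem ι (hP hx), ← h2]
          exact iext_mem_range ι (hφS ⟨x, hx⟩)
      intro x hx
      obtain ⟨hxS, hx2⟩ := Helper85.mem_preSub.1 (hle hx)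
      rw [iext_mem ι hxS]
      exact hx2
    obtain ⟨fh, hfh, hfhh⟩ := realized_exists_mor hreal hQPS h hrange
    have hfhQ : ∀ x ∈ Helper85.preSub ι (pCore p G), fh x = autFun β x := fun x hx =>
      iext_inj hreal.1 (hfh.mem_S ((le_sup_left : Helper85.preSub ι (pCore p G) ≤ _ ⊔ P) hx))
        (hQS (autFun_mem_R β hx))
        (by rw [hfhh x ((le_sup_left : Helper85.preSub ι (pCore p G) ≤ _ ⊔ P) hx), hβspec x hx])
    have hfhP : ∀ x : P, φ x = fh x := fun x =>
      iext_inj hreal.1 (hφS x)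
        (hfh.mem_S ((le_sup_right : P ≤ Helper85.preSub ι (pCore p G) ⊔ P) x.2))
        (by
          rw [hfhh _ ((le_sup_right : P ≤ Helper85.preSub ι (pCore p G) ⊔ P) x.2)]
          exact hφh x)
    obtain ⟨φ₁, hφ₁E, hφ₁f⟩ := hf'
    have hφ₁ : φ₁ ∈ F.Hom (Helper85.preSub ι (pCore p G) ⊔ P) := hE.2.1.1 _ hφ₁E
    obtain ⟨φ₂, hφ₂, hφ₂f⟩ := hfh
    obtain ⟨z, hzQ, -, hz⟩ := Cfsg.Agent.S5095.result p hS F hF
      (Helper85.preSub ι (pCore p G) ⊔ P) (Helper85.preSub ι (pCore p G)) le_sup_left hQc φ₁ φ₂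
      hφ₁ hφ₂ (fun x hx => by rw [hφ₁f, hφ₂f, hf'β _ hx, hfhQ _ hx])
    have hzS : (z : Ω) ∈ S := hQS hzQ
    have hconj : Mor E (Helper85.preSub ι (pCore p G) ⊔ P) (fun y => (z : Ω) * y * (z : Ω)⁻¹) :=
      mor_conj E hQPS hzS
    have hf'E : Mor E (Helper85.preSub ι (pCore p G) ⊔ P) f' := ⟨φ₁, hφ₁E, hφ₁f⟩
    have hcomp := hconj.comp hf'E (fun y hy => Subgroup.mul_mem _ (Subgroup.mul_mem _ z.2 hy)
      (Subgroup.inv_mem _ z.2))
    have hfhE : Mor E (Helper85.preSub ι (pCore p G) ⊔ P) fh := hcomp.congr (fun y hy => by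
      have e1 : fh y = φ₂ ⟨y, hy⟩ := (hφ₂f ⟨y, hy⟩).symm
      show f' ((z : Ω) * y * (z : Ω)⁻¹) = fh y
      rw [e1, hz ⟨y, hy⟩, hφ₁f]
      rfl)
    exact hom_of_mor (hfhE.res le_sup_right) hfhP

/-- `O^{p'}` of a model is a model of the `p'`-residual subsystem. -/
theorem pprime_isModel (hS : IsPGroup p S) (hF : F.IsSaturated p) (hmod : F.IsModel p G ι)
    {E : FusionSystem S} (hE : F.IsPPrimeResidual p E) :
    E.IsModel p ↥(Opp p G) (resHom ι S le_rfl (Opp p G) (fun _ hx => iext_mem_opp hS ι hx)) := by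
  haveI : Finite G := hmod.1
  have hreal := hmod.2.1
  obtain ⟨T₀, hT₀⟩ := hmod.2.2.1
  obtain ⟨R, hR⟩ := exists_sylow_resHom hS T₀ hT₀
  have hEq : E = RSys ι hreal.1 S le_rfl (Opp p G) (fun _ hx => iext_mem_opp hS ι hx) :=
    Helper87.fusionSystem_ext (fun P => pprime_hom_eq hS hF hmod hE P)
  refine ⟨inferInstance, ?_, ⟨R, hR⟩, ?_⟩
  · rw [hEq]
    exact rSys_realized ι hreal.1 S le_rfl (Opp p G) _
  · exact Helper49.charp_of_subnormal hmod.2.2.2 (Opp p G) (opp_normal p G).isSubnormal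

end

end Cfsg.Agent.Lib.Helper84.PSolv
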