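import Mathlib
import Cfsg.Prelude.Def_FusionSystem
import Cfsg.Prelude.Def_FusionComponents
import Cfsg.Agent.Lib.Helper84.PSolvB
import Cfsg.Agent.Lib.Helper84.Hyperfocal
import Cfsg.Agent.Lib.Helper87.FusionHyp
import Cfsg.Agent.Lib.Helper47.Syl
import Cfsg.Agent.Lib.Helper2.Transfer
import Cfsg.Agent.S5113

set_option autoImplicit false
set_option linter.style.haveILetI false

/-!
# The `p`-residual subsystem of a realized system, read in the group

If `H` realizes the saturated system `E` on a Sylow `p`-subgroup (through `κ`), the hyperfocal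
subgroup of `E` is the preimage of `O^p(H)`, and the `p`-residual subsystem of `E` is the system
of `O^p(H)`.
-/

namespace Cfsg.Agent.Lib.Helper84.PSolv

open Cfsg Cfsg.FusionSystem Cfsg.Agent.Lib.Helper84 Cfsg.Agent.Lib.Helper84.SatCrit
open Cfsg.Agent.Lib.Helper88 (Mor extFun extFun_mem extFun_apply img mor_of_hom hom_of_mor mor_conj mor_id)

universe u v

variable {Ω : Type u} [Group Ω] {S : Subgroup Ω} {G : Type v} [Group G]

/-! ### Transport of automorphism groups along a realization -/

theorem aut_transport_mem {F : FusionSystem S} {ι : S →* G} (hreal : F.IsRealizedBy ι)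
    {P : Subgroup Ω} (hP : P ≤ S) {P' : Subgroup G} (hP' : P' ≤ ι.range) (e : P ≃* P')
    (he : ∀ x : P, ((e x : P') : G) = ι ⟨x, hP x.2⟩) (α : MulAut P) :
    α ∈ F.autGroup P ↔ MulAut.congr e α ∈ (groupFusionSystem ι.range).autGroup P' := by
  rw [Helper87.mem_autGroup_iff F hP, Helper87.mem_autGroup_iff _ hP']
  have hφS : ∀ x : P, (P.subtype.comp α.toMonoidHom) x ∈ S := fun x => hP (Subtype.property _)
  rw [hreal.2 P hP _ hφS]
  constructor
  · rintro ⟨g, hg⟩
    refine ⟨hP', fun y => hP' (Subtype.property _), g, fun y => ?_⟩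
    show ((e (α (e.symm y)) : P') : G) = g * (y : G) * g⁻¹
    rw [he]
    have h1 := hg (e.symm y)
    have h2 : ι ⟨(e.symm y : P), hP (e.symm y).2⟩ = (y : G) := by
      rw [← he, MulEquiv.apply_symm_apply]
    rw [h2] at h1
    exact h1
  · rintro ⟨-, -, g, hg⟩
    refine ⟨g, fun x => ?_⟩
    have h1 : ((e (α (e.symm (e x))) : P') : G) = g * ((e x : P') : G) * g⁻¹ := hg (e x)
    rw [MulEquiv.symm_apply_apply, he, he] at h1
    exact h1

theorem pres_transport {p : ℕ} {F : FusionSystem S} {ι : S →* G} (hreal : F.IsRealizedBy ι)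
    {P : Subgroup Ω} (hP : P ≤ S) {P' : Subgroup G} (hP' : P' ≤ ι.range) (e : P ≃* P')
    (he : ∀ x : P, ((e x : P') : G) = ι ⟨x, hP x.2⟩) {α : MulAut P}
    (hα : α ∈ (pResidual p ↥(F.autGroup P)).map (F.autGroup P).subtype) :
    MulAut.congr e α ∈ (pResidual p ↥((groupFusionSystem ι.range).autGroup P')).map
      ((groupFusionSystem ι.range).autGroup P').subtype :=
  Helper87.map_pResidual_congr p (MulAut.congr e)
    (fun a ha => (aut_transport_mem hreal hP hP' e he a).1 ha) hα

theorem pres_transport_symm {p : ℕ} {F : FusionSystem S} {ι : S →* G} (hreal : F.IsRealizedBy ι)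
    {P : Subgroup Ω} (hP : P ≤ S) {P' : Subgroup G} (hP' : P' ≤ ι.range) (e : P ≃* P')
    (he : ∀ x : P, ((e x : P') : G) = ι ⟨x, hP x.2⟩) {α' : MulAut P'}
    (hα : α' ∈ (pResidual p ↥((groupFusionSystem ι.range).autGroup P')).map
      ((groupFusionSystem ι.range).autGroup P').subtype) :
    (MulAut.congr e).symm α' ∈ (pResidual p ↥(F.autGroup P)).map (F.autGroup P).subtype :=
  Helper87.map_pResidual_congr p (MulAut.congr e).symm
    (fun a ha => (aut_transport_mem hreal hP hP' e he _).2 (by
      rw [MulEquiv.apply_symm_apply]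
      exact ha)) hα

theorem exists_equiv_imSub {ι : S →* G} (hinj : Function.Injective ι) {P : Subgroup Ω}
    (hP : P ≤ S) :
    ∃ e : P ≃* ↥(Helper85.imSub ι P), ∀ x : P,
      ((e x : ↥(Helper85.imSub ι P)) : G) = ι ⟨x, hP x.2⟩ := by
  let f : P →* ↥(Helper85.imSub ι P) :=
    (ι.comp (Subgroup.inclusion hP)).codRestrict (Helper85.imSub ι P)
      (fun x => Helper85.map_mem_imSub hP x)
  have hf : Function.Bijective f := by
    constructor
    · intro a b hab
      have h1 : ι ⟨a, hP a.2⟩ = ι ⟨b, hP b.2⟩ := congrArg Subtype.val hab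
      exact Subtype.ext (Subtype.mk.inj (hinj h1))
    · rintro ⟨y, hy⟩
      obtain ⟨x, hx, rfl⟩ := Helper85.mem_imSub.1 hy
      exact ⟨⟨x, hx⟩, rfl⟩
  exact ⟨MulEquiv.ofBijective f hf, fun x => rfl⟩

/-- the hyperfocal subgroup of a realized system is the preimage of the hyperfocal subgroup of
the system of the group on the image. -/
theorem hyp_transport {p : ℕ} {F : FusionSystem S} {ι : S →* G} (hreal : F.IsRealizedBy ι)
    (x : Ω) : x ∈ F.hyperfocalSubgroup p ↔
      x ∈ S ∧ iext ι x ∈ (groupFusionSystem ι.range).hyperfocalSubgroup p := by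
  constructor
  · intro hx
    refine ⟨Helper87.hyperfocal_le F p hx, ?_⟩
    have key : ∀ y ∈ F.hyperfocalSubgroup p, y ∈ S ∧
        iext ι y ∈ (groupFusionSystem ι.range).hyperfocalSubgroup p := by
      intro y hy
      unfold hyperfocalSubgroup at hy
      induction hy using Subgroup.closure_induction with
      | mem y hy =>
        obtain ⟨P, α, a, hP, hα, rfl⟩ := hy
        have haS : (a : Ω) ∈ S := hP a.2
        have hαaS : ((((α : MulAut P) a : P)) : Ω) ∈ S := hP (Subtype.property _)
        refine ⟨S.mul_mem (S.inv_mem haS) hαaS, ?_⟩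
        obtain ⟨e, he⟩ := exists_equiv_imSub hreal.1 hP
        have hα' := pres_transport hreal hP (Helper85.imSub_le_range ι P) e he
          (α := (α : MulAut P)) ⟨α, hα, rfl⟩
        have hgen := Helper87.hyperfocal_gen (groupFusionSystem ι.range) p
          (Helper85.imSub_le_range ι P) hα' (e a)
        have e1 : iext ι ((a : Ω)⁻¹ * ((((α : MulAut P) a : P)) : Ω)) =
            ((e a : ↥(Helper85.imSub ι P)) : G)⁻¹ *
              (((MulAut.congr e (α : MulAut P)) (e a) : ↥(Helper85.imSub ι P)) : G) := by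
          rw [iext_mul ι (S.inv_mem haS) hαaS, iext_inv ι haS, iext_mem ι haS, iext_mem ι hαaS,
            he a]
          congr 1
          show _ = ((e ((α : MulAut P) (e.symm (e a))) : ↥(Helper85.imSub ι P)) : G)
          rw [MulEquiv.symm_apply_apply, he]
        rw [e1]
        exact hgen
      | one =>
        refine ⟨S.one_mem, ?_⟩
        rw [iext_mem ι S.one_mem]
        have : (⟨1, S.one_mem⟩ : S) = 1 := rfl
        rw [this, map_one]
        exact Subgroup.one_mem _
      | mul a b _ _ ha hb =>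
        refine ⟨S.mul_mem ha.1 hb.1, ?_⟩
        rw [iext_mul ι ha.1 hb.1]
        exact Subgroup.mul_mem _ ha.2 hb.2
      | inv a _ ha =>
        refine ⟨S.inv_mem ha.1, ?_⟩
        rw [iext_inv ι ha.1]
        exact Subgroup.inv_mem _ ha.2
    exact (key x hx).2
  · rintro ⟨hxS, hx⟩
    have hle : (groupFusionSystem ι.range).hyperfocalSubgroup p ≤
        ((F.hyperfocalSubgroup p).subgroupOf S).map ι := by
      unfold hyperfocalSubgroup
      rw [Subgroup.closure_le]
      rintro _ ⟨P', α', b, hP', hα', rfl⟩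
      obtain ⟨e, he⟩ := Helper85.exists_equiv_preSub hreal.1 hP'
      have hPS : Helper85.preSub ι P' ≤ S := Helper85.preSub_le ι P'
      have hα := pres_transport_symm hreal hPS hP' e he (α' := (α' : MulAut P')) ⟨α', hα', rfl⟩
      have hgen := Helper87.hyperfocal_gen F p hPS hα (e.symm b)
      have hmemS : ((e.symm b : ↥(Helper85.preSub ι P')) : Ω)⁻¹ *
          ((((MulAut.congr e).symm (α' : MulAut P')) (e.symm b) : ↥(Helper85.preSub ι P')) : Ω)
            ∈ S := Helper87.hyperfocal_le F p hgen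
      refine ⟨⟨_, hmemS⟩, Subgroup.mem_subgroupOf.2 hgen, ?_⟩
      have h1 := iext_mem ι hmemS
      rw [← h1, iext_mul ι (S.inv_mem (hPS (Subtype.property _))) (hPS (Subtype.property _)),
        iext_inv ι (hPS (Subtype.property _)), iext_mem ι (hPS (Subtype.property _)),
        iext_mem ι (hPS (Subtype.property _)), ← he, ← he, MulEquiv.apply_symm_apply]
      congr 1
      show ((e (e.symm ((α' : MulAut P') (e (e.symm b)))) : P') : G) = _
      rw [MulEquiv.apply_symm_apply, MulEquiv.apply_symm_apply]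
    obtain ⟨z, hz, hzx⟩ := hle hx
    rw [iext_mem ι hxS] at hzx
    have h2 : z = ⟨x, hxS⟩ := hreal.1 hzx
    have h3 : (z : Ω) = x := by rw [h2]
    rw [← h3]
    exact Subgroup.mem_subgroupOf.1 hz

/-- the hyperfocal subgroup theorem for a realized system. -/
theorem mem_hyp_iff [Finite G] {p : ℕ} [Fact p.Prime] {F : FusionSystem S} {ι : S →* G}
    (hreal : F.IsRealizedBy ι) (R : Sylow p G) (hR : (R : Subgroup G) = ι.range) (x : Ω) :
    x ∈ F.hyperfocalSubgroup p ↔ x ∈ S ∧ iext ι x ∈ pResidual p G := by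
  rw [hyp_transport hreal]
  have h1 : (groupFusionSystem ι.range).hyperfocalSubgroup p = ι.range ⊓ pResidual p G := by
    have h2 := Helper84.hyperfocal_eq p R
    rw [hR] at h2
    exact h2
  rw [h1, Subgroup.mem_inf]
  constructor
  · rintro ⟨hxS, -, hx⟩
    exact ⟨hxS, hx⟩
  · rintro ⟨hxS, hx⟩
    exact ⟨hxS, iext_mem_range ι hxS, hx⟩

/-! ### The `p`-residual subsystem -/

section

variable [Finite S] {p : ℕ} [Fact p.Prime] {E : FusionSystem S} {κ : S →* G}

theorem iext_mem_res [Finite G] (hreal : E.IsRealizedBy κ) (R : Sylow p G)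
    (hR : (R : Subgroup G) = κ.range) :
    ∀ x ∈ E.hyperfocalSubgroup p, iext κ x ∈ pResidual p G :=
  fun x hx => ((mem_hyp_iff hreal R hR x).1 hx).2

theorem rSys_ppower [Finite G] (hreal : E.IsRealizedBy κ) (R : Sylow p G)
    (hR : (R : Subgroup G) = κ.range) :
    (RSys κ hreal.1 (E.hyperfocalSubgroup p) (Helper87.hyperfocal_le E p) (pResidual p G)
      (iext_mem_res hreal R hR)).HasPPowerIndexIn E p := by
  refine ⟨rSys_sub hreal _ _ _ _, le_rfl, fun P hP => ?_⟩
  have hPS : P ≤ S := hP.trans (Helper87.hyperfocal_le E p)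
  rw [Subgroup.map_le_iff_le_comap]
  unfold pResidual
  rw [Subgroup.closure_le]
  intro α hα
  have hα' : (orderOf α).Coprime p := hα
  show ((α : MulAut P)) ∈ (RSys κ hreal.1 (E.hyperfocalSubgroup p) (Helper87.hyperfocal_le E p)
    (Subgroup.closure {g : G | Nat.Coprime (orderOf g) p}) (iext_mem_res hreal R hR)).autGroup P
  rw [Helper88.mem_autGroup_iff _ hP]
  have hm : Mor E P (autFun (α : MulAut P)) := autFun_mor E hPS α.2
  obtain ⟨g, hg⟩ := realized_mor_elim hreal hm
  have hord : (orderOf (α : MulAut P)).Coprime p := by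
    rw [Subgroup.orderOf_coe]
    exact hα'
  obtain ⟨g', hg'c, hg'⟩ := exists_pprime_lift_r κ hPS (α : MulAut P) hord hg
  exact (rSys_mor_iff hreal).2 ⟨hP, fun x hx => hP (autFun_mem_R _ hx), g',
    Subgroup.subset_closure hg'c, hg'⟩

theorem exists_sylow_resHom_res [Finite G] (hreal : E.IsRealizedBy κ) (R : Sylow p G)
    (hR : (R : Subgroup G) = κ.range) :
    ∃ R' : Sylow p ↥(pResidual p G), (R' : Subgroup ↥(pResidual p G)) =
      (resHom κ (E.hyperfocalSubgroup p) (Helper87.hyperfocal_le E p) (pResidual p G)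
        (iext_mem_res hreal R hR)).range := by
  haveI : (pResidual p G).Normal := Helper2.pResidual_normal p
  obtain ⟨R', hR'⟩ := Helper47.exists_sylow_inf_normal R (pResidual p G)
  refine ⟨R', ?_⟩
  rw [hR']
  ext y
  rw [Subgroup.mem_subgroupOf, mem_range_resHom, Subgroup.mem_inf, hR]
  constructor
  · rintro ⟨⟨x, hx⟩, hyK⟩
    refine ⟨x, (mem_hyp_iff hreal R hR x).2 ⟨x.2, ?_⟩, ?_⟩
    · rw [iext_mem κ x.2, hx]
      exact hyK
    · rw [iext_mem κ x.2]
      exact hx
  · rintro ⟨x, hx, hxy⟩
    rw [← hxy]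
    exact ⟨iext_mem_range κ (Helper87.hyperfocal_le E p hx), iext_mem_res hreal R hR x hx⟩

/-- the `p`-residual subsystem of a realized saturated system is the system of `O^p` of the
group. -/
theorem pres_eq [Finite G] (hS : IsPGroup p S) (hE : E.IsSaturated p) (hreal : E.IsRealizedBy κ)
    (R : Sylow p G) (hR : (R : Subgroup G) = κ.range)
    {D : FusionSystem (E.hyperfocalSubgroup p)} (hD : E.IsPResidual p D) :
    D = RSys κ hreal.1 (E.hyperfocalSubgroup p) (Helper87.hyperfocal_le E p) (pResidual p G)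
      (iext_mem_res hreal R hR) := by
  obtain ⟨R', hR'⟩ := exists_sylow_resHom_res hreal R hR
  have hsat : (RSys κ hreal.1 (E.hyperfocalSubgroup p) (Helper87.hyperfocal_le E p)
      (pResidual p G) (iext_mem_res hreal R hR)).IsSaturated p :=
    Helper85.realized_isSaturated (rSys_realized κ hreal.1 _ _ _ _) R' hR'
  obtain ⟨E₀, -, huniq⟩ := Cfsg.Agent.S5113.result p hS E hE (E.hyperfocalSubgroup p)
    (Helper87.hyperfocal_le E p) le_rfl
  rw [huniq D hD.1 hD.2, huniq _ hsat (rSys_ppower hreal R hR)]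

/-- `O^p` of a model is a model of the `p`-residual subsystem. -/
theorem pres_isModel (hS : IsPGroup p S) (hE : E.IsSaturated p) (hmod : E.IsModel p G κ)
    {D : FusionSystem (E.hyperfocalSubgroup p)} (hD : E.IsPResidual p D) :
    ∃ κ' : ↥(E.hyperfocalSubgroup p) →* ↥(pResidual p G), D.IsModel p ↥(pResidual p G) κ' := by
  haveI : Finite G := hmod.1
  have hreal := hmod.2.1
  obtain ⟨R, hR⟩ := hmod.2.2.1
  obtain ⟨R', hR'⟩ := exists_sylow_resHom_res hreal R hR
  refine ⟨resHom κ (E.hyperfocalSubgroup p) (Helper87.hyperfocal_le E p) (pResidual p G)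
    (iext_mem_res hreal R hR), inferInstance, ?_, ⟨R', hR'⟩, ?_⟩
  · rw [pres_eq hS hE hreal R hR hD]
    exact rSys_realized κ hreal.1 _ _ _ _
  · exact Helper49.charp_of_subnormal hmod.2.2.2 (pResidual p G)
      (Helper2.pResidual_normal p).isSubnormal

/-- the second term of the residual series of a system with a model has a model inside. -/
theorem residual_isModel {F : FusionSystem S} {ι : S →* G} (hS : IsPGroup p S)
    (hF : F.IsSaturated p) (hmod : F.IsModel p G ι) {E : FusionSystem S}
    (hE : F.IsPPrimeResidual p E) {D : FusionSystem (E.hyperfocalSubgroup p)}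
    (hD : E.IsPResidual p D) :
    ∃ κ' : ↥(E.hyperfocalSubgroup p) →* ↥(pResidual p ↥(Opp p G)),
      D.IsModel p ↥(pResidual p ↥(Opp p G)) κ' :=
  pres_isModel hS hE.1 (pprime_isModel hS hF hmod hE) hD

end

end Cfsg.Agent.Lib.Helper84.PSolv
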