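import Mathlib
import Cfsg.Prelude.Def_RootSubgroups

set_option autoImplicit false

namespace Cfsg.Agent.Lib.Helper84

open Cfsg

variable {G : Type*} [Group G]

theorem mem_conjBy {A : Subgroup G} {g x : G} : x ∈ conjBy A g ↔ g⁻¹ * x * g ∈ A := by
  constructor
  · rintro ⟨y, hy, rfl⟩
    simpa [mul_assoc] using hy
  · intro h
    exact ⟨g⁻¹ * x * g, h, by simp [mul_assoc]⟩

theorem conjBy_one (A : Subgroup G) : conjBy A 1 = A := by
  ext x
  simp

theorem conjBy_conjBy (A : Subgroup G) (g h : G) : conjBy (conjBy A g) h = conjBy A (h * g) := by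
  ext x
  simp [mul_assoc]

theorem conjBy_of_mem {A : Subgroup G} {g : G} (hg : g ∈ A) : conjBy A g = A := by
  ext x
  rw [mem_conjBy]
  constructor
  · intro h
    have := A.mul_mem (A.mul_mem hg h) (A.inv_mem hg)
    simpa [mul_assoc] using this
  · intro h
    exact A.mul_mem (A.mul_mem (A.inv_mem hg) h) hg

theorem map_conjBy {H : Type*} [Group H] (f : G →* H) (A : Subgroup G) (g : G) :
    (conjBy A g).map f = conjBy (A.map f) (f g) := by
  unfold conjBy
  rw [Subgroup.map_map, Subgroup.map_map]
  congr 1
  ext x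
  simp

theorem isNilpotent_of_isMulCommutative (K : Type*) [Group K] [h : IsMulCommutative K] : Group.IsNilpotent K := by
  let _ : CommGroup K := { (inferInstance : Group K) with mul_comm := fun a b => mul_comm' a b }
  exact CommGroup.isNilpotent

theorem commutator_self_eq_bot {A : Subgroup G} (h : IsMulCommutative A) : ⁅A, A⁆ = ⊥ := by
  rw [Subgroup.commutator_eq_bot_iff_le_centralizer]
  exact Subgroup.le_centralizer_iff_isMulCommutative.2 h

end Cfsg.Agent.Lib.Helper84
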