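import Mathlib
import Cfsg.Prelude.Def_IsolatedElements
import Cfsg.Prelude.Def_CaseTheorems
import Cfsg.Prelude.Def_TwoFusion
import Cfsg.Agent.Lib.Helper84.ZStarFusion
import Cfsg.Agent.Lib.Helper84.FusionAlperin
import Cfsg.Agent.Lib.Helper84.FusionRS
import Cfsg.Agent.Lib.Helper22.PComp
import Cfsg.Agent.Lib.Helper50.ZStar

set_option autoImplicit false

namespace Cfsg.Agent.Lib.Helper84

universe u

section zcor

variable {G : Type u} [Group G] [Finite G]

/-- the `Z*`-statement gives: an isolated involution is central modulo the odd core. -/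
theorem zstar_of_isolatedInvolution (hZ : ZStarStmt.{u}) (z : G)
    (hz : Cfsg.IsIsolatedInvolution z) : ∀ g : G, z * g * z⁻¹ * g⁻¹ ∈ Cfsg.oddCore G := by
  haveI : Fact (Nat.Prime 2) := ⟨Nat.prime_two⟩
  obtain ⟨P, hP⟩ := (Helper50.isPGroup_zpowers_of_orderOf z hz.1).exists_le_sylow
  have hzP : z ∈ (P : Subgroup G) := hP (Subgroup.mem_zpowers z)
  have hcomm := Helper50.commute_of_isIsolated (p := 2) hz.2 P P.isPGroup' hzP
  obtain ⟨N, hNn, hNodd, hN⟩ := hZ G P z hz.1 hzP (fun g hg => hz.2 g (hcomm _ hg))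
  have hle : N ≤ Cfsg.oddCore G :=
    Helper22.le_pPrimeCore_of_normal 2 hNn (Nat.coprime_two_right.2 hNodd)
  exact fun g => hle (hN g)

/-- variant: `g z g⁻¹ z⁻¹` in the odd core. -/
theorem inZStar_of_isolatedInvolution (hZ : ZStarStmt.{u}) (z : G)
    (hz : Cfsg.IsIsolatedInvolution z) : Cfsg.InZStar 2 z := by
  intro g
  have h := zstar_of_isolatedInvolution hZ z hz g
  have h2 : g * z * g⁻¹ * z⁻¹ = (z * g * z⁻¹ * g⁻¹)⁻¹ := by group
  rw [h2]
  exact inv_mem h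

omit [Finite G] in
/-- an isolated involution stays isolated in any subgroup containing it. -/
theorem isIsolatedInvolution_subtype {z : G} (hz : Cfsg.IsIsolatedInvolution z) (N : Subgroup G)
    (hzN : z ∈ N) : Cfsg.IsIsolatedInvolution (⟨z, hzN⟩ : ↥N) := by
  refine ⟨?_, ?_⟩
  · rw [Subgroup.orderOf_mk]
    exact hz.1
  · intro g hg
    apply Subtype.ext
    apply hz.2 (g : G)
    have h := congrArg Subtype.val hg.eq
    exact h

omit [Finite G] in
/-- an involution does not lie in a `p`-group for `p` odd. -/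
theorem not_mem_pGroup_of_orderOf_two {p : ℕ} [Fact p.Prime] (hp : p ≠ 2) {z : G}
    (hz : orderOf z = 2) {Q : Subgroup G} (hQ : IsPGroup p Q) : z ∉ Q := by
  intro hzQ
  obtain ⟨k, hk⟩ := hQ ⟨z, hzQ⟩
  have hk' : z ^ p ^ k = 1 := by
    have := congrArg Subtype.val hk
    simpa using this
  have h1 : orderOf z ∣ p ^ k := orderOf_dvd_of_pow_eq_one hk'
  rw [hz] at h1
  have h2 : 2 ∣ p := Nat.Prime.dvd_of_dvd_pow Nat.prime_two h1
  exact hp ((Nat.prime_dvd_prime_iff_eq Nat.prime_two Fact.out).1 h2).symm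

/-- Under the `Z*`-statement: a `p`-subgroup normalized by an isolated involution `z` and maximal
with this property is a Sylow `p`-subgroup. -/
theorem sylow_of_max_invariant (hZ : ZStarStmt.{u}) (z : G) (hz : Cfsg.IsIsolatedInvolution z)
    {p : ℕ} [Fact p.Prime] (Q : Subgroup G) (hQ : IsPGroup p Q)
    (hzQ : z ∈ Subgroup.normalizer (Q : Set G))
    (hmax : ∀ R : Subgroup G, IsPGroup p R → z ∈ Subgroup.normalizer (R : Set G) → Q ≤ R → R = Q) :
    ∃ P : Sylow p G, (P : Subgroup G) = Q := by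
  obtain ⟨P, hQP⟩ := hQ.exists_le_sylow
  by_contra hcon
  have hne : Q ≠ (P : Subgroup G) := fun h => hcon ⟨P, h.symm⟩
  by_cases hp : p = 2
  · subst hp
    have h1 : IsPGroup 2 ↥(Subgroup.zpowers z ⊔ Q) :=
      IsPGroup.to_sup_of_normal_right' (Helper50.isPGroup_zpowers_of_orderOf z hz.1) hQ
        (by rw [Subgroup.zpowers_le]; exact hzQ)
    have h2 : z ∈ Subgroup.zpowers z ⊔ Q :=
      (le_sup_left : Subgroup.zpowers z ≤ _) (Subgroup.mem_zpowers z)
    have h3 := hmax _ h1 (Subgroup.le_normalizer h2) le_sup_right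
    have hzQ' : z ∈ Q := by rw [← h3]; exact h2
    have h4 := hmax P P.isPGroup' (Subgroup.le_normalizer (hQP hzQ')) hQP
    exact hne h4.symm
  · obtain ⟨x, hxN, hxQ⟩ := exists_mem_normalizerIn_not_mem P.isPGroup' hQP hne
    have hxP : x ∈ (P : Subgroup G) := hxN.1
    have hxNQ : x ∈ Subgroup.normalizer (Q : Set G) := hxN.2
    obtain ⟨N, hN⟩ : ∃ N : Subgroup G, N = Subgroup.normalizer (Q : Set G) := ⟨_, rfl⟩
    have hzN : z ∈ N := by rw [hN]; exact hzQ
    have hxN' : x ∈ N := by rw [hN]; exact hxNQ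
    have hQN : Q ≤ N := by rw [hN]; exact Subgroup.le_normalizer
    haveI hQn : (Q.subgroupOf N).Normal := by
      rw [hN]
      exact Subgroup.normal_in_normalizer
    have hisoN := isIsolatedInvolution_subtype hz N hzN
    have hstar := inZStar_of_isolatedInvolution hZ _ hisoN
    -- the quotient
    have hπs : Function.Surjective (QuotientGroup.mk' (Q.subgroupOf N)) :=
      QuotientGroup.mk'_surjective _
    have hzb1 : (QuotientGroup.mk' (Q.subgroupOf N)) ⟨z, hzN⟩ ≠ 1 := by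
      intro h
      rw [QuotientGroup.mk'_apply, QuotientGroup.eq_one_iff, Subgroup.mem_subgroupOf] at h
      exact not_mem_pGroup_of_orderOf_two hp hz.1 hQ h
    have hzb2 : orderOf ((QuotientGroup.mk' (Q.subgroupOf N)) ⟨z, hzN⟩) = 2 := by
      apply orderOf_eq_prime _ hzb1
      rw [← map_pow]
      have : (⟨z, hzN⟩ : ↥N) ^ 2 = 1 := by
        apply Subtype.ext
        show z ^ 2 = 1
        rw [← hz.1]
        exact pow_orderOf_eq_one z
      rw [this, map_one]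
    have hstarb : Cfsg.InZStar 2 ((QuotientGroup.mk' (Q.subgroupOf N)) ⟨z, hzN⟩) := by
      have hle : (Cfsg.pPrimeCore 2 ↥N).map (QuotientGroup.mk' (Q.subgroupOf N))
          ≤ Cfsg.pPrimeCore 2 (↥N ⧸ Q.subgroupOf N) := by
        haveI := Helper22.pPrimeCore_normal' 2 ↥N
        apply Helper22.le_pPrimeCore_of_normal 2 (Subgroup.Normal.map inferInstance _ hπs)
        exact Nat.Coprime.coprime_dvd_left (Subgroup.card_map_dvd _ _)
          (Helper22.card_pPrimeCore_coprime 2 ↥N)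
      intro gb
      obtain ⟨g, rfl⟩ := hπs gb
      apply hle
      refine ⟨g * ⟨z, hzN⟩ * g⁻¹ * (⟨z, hzN⟩ : ↥N)⁻¹, hstar g, ?_⟩
      simp only [map_mul, map_inv]
    haveI : Fact (Nat.Prime 2) := ⟨Nat.prime_two⟩
    obtain ⟨Rb, hRb⟩ := Helper50.exists_sylow_normalizer_of_inZStar (p := 2) (q := p) _
      hstarb hzb2
    have hker : IsPGroup p (QuotientGroup.mk' (Q.subgroupOf N)).ker := by
      rw [QuotientGroup.ker_mk']
      exact hQ.comap_subtype
    have hR1 : IsPGroup p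
        ↥(((Rb : Subgroup (↥N ⧸ Q.subgroupOf N)).comap
          (QuotientGroup.mk' (Q.subgroupOf N))).map N.subtype) :=
      (Rb.isPGroup'.comap_of_ker_isPGroup _ hker).map _
    have hR2 : Q ≤ ((Rb : Subgroup (↥N ⧸ Q.subgroupOf N)).comap
          (QuotientGroup.mk' (Q.subgroupOf N))).map N.subtype := by
      intro q hq
      refine ⟨⟨q, hQN hq⟩, ?_, rfl⟩
      rw [SetLike.mem_coe, Subgroup.mem_comap]
      have : (QuotientGroup.mk' (Q.subgroupOf N)) ⟨q, hQN hq⟩ = 1 := by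
        rw [QuotientGroup.mk'_apply, QuotientGroup.eq_one_iff, Subgroup.mem_subgroupOf]
        exact hq
      rw [this]
      exact one_mem _
    have hR3 : z ∈ Subgroup.normalizer ((((Rb : Subgroup (↥N ⧸ Q.subgroupOf N)).comap
          (QuotientGroup.mk' (Q.subgroupOf N))).map N.subtype : Subgroup G) : Set G) := by
      apply mem_normalizer_of_finite_of_conj_mem
      rintro _ ⟨k, hk, rfl⟩
      refine ⟨⟨z, hzN⟩ * k * (⟨z, hzN⟩ : ↥N)⁻¹, ?_, rfl⟩
      rw [SetLike.mem_coe, Subgroup.mem_comap] at hk ⊢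
      rw [map_mul, map_mul, map_inv]
      exact (Subgroup.mem_normalizer_iff.1 hRb _).1 hk
    have hR4 := hmax _ hR1 hR3 hR2
    have hRbot : (Rb : Subgroup (↥N ⧸ Q.subgroupOf N)) = ⊥ := by
      rw [eq_bot_iff]
      intro rb hrb
      obtain ⟨k, rfl⟩ := hπs rb
      have hkQ : (k : G) ∈ Q := by
        rw [← hR4]
        exact ⟨k, hrb, rfl⟩
      rw [Subgroup.mem_bot, QuotientGroup.mk'_apply, QuotientGroup.eq_one_iff,
        Subgroup.mem_subgroupOf]
      exact hkQ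
    obtain ⟨S', hS'⟩ := ((P.isPGroup'.comap_subtype (K := N)).map
      (QuotientGroup.mk' (Q.subgroupOf N))).exists_le_sylow
    have hcard : Nat.card (S' : Subgroup (↥N ⧸ Q.subgroupOf N)) = 1 := by
      rw [Sylow.card_eq_multiplicity, ← Sylow.card_eq_multiplicity Rb, hRbot]
      exact Subgroup.card_bot
    have hS'bot : (S' : Subgroup (↥N ⧸ Q.subgroupOf N)) = ⊥ := Subgroup.eq_bot_of_card_eq _ hcard
    have hx1 : (QuotientGroup.mk' (Q.subgroupOf N)) ⟨x, hxN'⟩ ∈ (S' : Subgroup _) :=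
      hS' ⟨⟨x, hxN'⟩, hxP, rfl⟩
    rw [hS'bot, Subgroup.mem_bot, QuotientGroup.mk'_apply, QuotientGroup.eq_one_iff,
      Subgroup.mem_subgroupOf] at hx1
    exact hxQ hx1

omit [Finite G] in
/-- membership in a conjugate Sylow subgroup. -/
theorem mem_smul_sylow_iff {p : ℕ} (c : G) (P : Sylow p G) (x : G) :
    x ∈ ((c • P : Sylow p G) : Subgroup G) ↔ c⁻¹ * x * c ∈ (P : Subgroup G) := by
  rw [Sylow.coe_subgroup_smul, Subgroup.mem_pointwise_smul_iff_inv_smul_mem]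
  have h0 : (MulAut.conj c)⁻¹ • x = c⁻¹ * x * c := by
    rw [← map_inv, MulAut.smul_def, MulAut.conj_apply]
    group
  rw [h0]

/-- the centralizer of an isolated involution is transitive on the Sylow `p`-subgroups it
normalizes. -/
theorem exists_commute_smul_sylow (z : G) (hz : Cfsg.IsIsolatedInvolution z) {p : ℕ}
    [Fact p.Prime] (P Q : Sylow p G) (hzP : z ∈ Subgroup.normalizer ((P : Subgroup G) : Set G))
    (hzQ : z ∈ Subgroup.normalizer ((Q : Subgroup G) : Set G)) :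
    ∃ c : G, c * z * c⁻¹ = z ∧ c • P = Q := by
  haveI : Fact (Nat.Prime 2) := ⟨Nat.prime_two⟩
  obtain ⟨g, hg⟩ := MulAction.exists_smul_eq G P Q
  have hz'Q : g * z * g⁻¹ ∈ Subgroup.normalizer ((Q : Subgroup G) : Set G) := by
    apply Sylow.smul_eq_iff_mem_normalizer.1
    rw [← hg, ← mul_smul, inv_mul_cancel_right, mul_smul,
      Sylow.smul_eq_iff_mem_normalizer.2 hzP]
  obtain ⟨M, hM⟩ : ∃ M : Subgroup G, M = Subgroup.normalizer ((Q : Subgroup G) : Set G) :=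
    ⟨_, rfl⟩
  have hzM : z ∈ M := by rw [hM]; exact hzQ
  have hz'M : g * z * g⁻¹ ∈ M := by rw [hM]; exact hz'Q
  have hisoM := isIsolatedInvolution_subtype hz M hzM
  have ho' : orderOf (⟨g * z * g⁻¹, hz'M⟩ : ↥M) = 2 := by
    rw [Subgroup.orderOf_mk, ← hz.1]
    exact (MulAut.conj g).orderOf_eq z
  obtain ⟨T1, hT1⟩ := (Helper50.isPGroup_zpowers_of_orderOf _ hisoM.1).exists_le_sylow
  obtain ⟨T2, hT2⟩ := (Helper50.isPGroup_zpowers_of_orderOf _ ho').exists_le_sylow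
  obtain ⟨m, hm⟩ := MulAction.exists_smul_eq ↥M T2 T1
  have hzT1 : (⟨z, hzM⟩ : ↥M) ∈ (T1 : Subgroup ↥M) := hT1 (Subgroup.mem_zpowers _)
  have hmem : m * ⟨g * z * g⁻¹, hz'M⟩ * m⁻¹ ∈ (T1 : Subgroup ↥M) := by
    rw [← hm, mem_smul_sylow_iff]
    have h1 : m⁻¹ * (m * ⟨g * z * g⁻¹, hz'M⟩ * m⁻¹) * m = ⟨g * z * g⁻¹, hz'M⟩ := by group
    rw [h1]
    exact hT2 (Subgroup.mem_zpowers _)
  have hcomm := Helper50.commute_of_isIsolated (p := 2) hisoM.2 T1 T1.isPGroup' hzT1 _ hmem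
  have hc1 : Commute z ((m : G) * g * z * ((m : G) * g)⁻¹) := by
    have h := congrArg Subtype.val hcomm.eq
    have h2 : (m : G) * g * z * ((m : G) * g)⁻¹ = (m : G) * (g * z * g⁻¹) * (m : G)⁻¹ := by
      group
    rw [h2]
    exact h
  refine ⟨(m : G) * g, hz.2 _ hc1, ?_⟩
  rw [mul_smul, hg]
  exact Sylow.smul_eq_iff_mem_normalizer.2 (hM.le m.2)

/-- in a `p`-group with `p` odd, every element is a fixed power of its square. -/
theorem exists_half_exponent {p : ℕ} [Fact p.Prime] (hp : p ≠ 2) (P : Subgroup G)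
    (hP : IsPGroup p P) : ∃ m : ℕ, ∀ x ∈ P, (x ^ 2) ^ m = x := by
  obtain ⟨k, hk⟩ := IsPGroup.iff_card.1 hP
  have hodd : Odd (Nat.card P) := by
    rw [hk]
    exact Odd.pow ((Fact.out : p.Prime).odd_of_ne_two hp)
  obtain ⟨m, hm⟩ := hodd
  refine ⟨m + 1, fun x hx => ?_⟩
  have h1 : x ^ Nat.card P = 1 := by
    have h := pow_card_eq_one' (G := ↥P) (x := ⟨x, hx⟩)
    exact congrArg Subtype.val h
  rw [← pow_mul, show 2 * (m + 1) = (2 * m + 1) + 1 by ring, pow_succ, ← hm, h1, one_mul]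

/-- the index of `C_P(z)` in a `z`-invariant `p`-subgroup `P` (`p` odd, `z` an involution) is the
number of elements of `P` inverted by `z`. -/
theorem relIndex_centralizer_eq_card_inverted (z : G) (hz2 : orderOf z = 2) {p : ℕ}
    [Fact p.Prime] (hp : p ≠ 2) (P : Subgroup G) (hP : IsPGroup p P)
    (hzP : z ∈ Subgroup.normalizer (P : Set G)) :
    (P ⊓ Subgroup.centralizer ({z} : Set G)).relIndex P
      = Nat.card {x : G // x ∈ P ∧ z * x * z⁻¹ = x⁻¹} := by
  obtain ⟨m, hm⟩ := exists_half_exponent hp P hP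
  have hzz : z * z = 1 := by rw [← pow_two, ← hz2]; exact pow_orderOf_eq_one z
  have hzz' : z⁻¹ * z⁻¹ = 1 := by rw [← mul_inv_rev, hzz, inv_one]
  symm
  show Nat.card {x : G // x ∈ P ∧ z * x * z⁻¹ = x⁻¹}
    = Nat.card (↥P ⧸ (P ⊓ Subgroup.centralizer ({z} : Set G)).subgroupOf P)
  apply Nat.card_congr
  refine Equiv.ofBijective (fun x => QuotientGroup.mk (⟨x.1, x.2.1⟩ : ↥P)) ⟨?_, ?_⟩
  · rintro ⟨x, hxP, hx⟩ ⟨y, hyP, hy⟩ hxy
    have h1 := QuotientGroup.eq.1 hxy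
    rw [Subgroup.mem_subgroupOf] at h1
    have h2 : x⁻¹ * y ∈ Subgroup.centralizer ({z} : Set G) := h1.2
    have h3 : z * (x⁻¹ * y) = (x⁻¹ * y) * z := Subgroup.mem_centralizer_iff.1 h2 z rfl
    have h4 : x * y⁻¹ = x⁻¹ * y := by
      have h5 : z * (x⁻¹ * y) * z⁻¹ = (z * x * z⁻¹)⁻¹ * (z * y * z⁻¹) := by group
      rw [hx, hy, inv_inv] at h5
      rw [← h5, h3]
      group
    have h5 : x ^ 2 = y ^ 2 := by
      have h6 : x * (x * y⁻¹) * y = x * (x⁻¹ * y) * y := by rw [h4]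
      rw [pow_two, pow_two]
      calc x * x = x * (x * y⁻¹) * y := by group
        _ = x * (x⁻¹ * y) * y := h6
        _ = y * y := by group
    apply Subtype.ext
    show x = y
    rw [← hm x hxP, ← hm y hyP, h5]
  · intro q
    induction q using QuotientGroup.induction_on with
    | H g =>
      obtain ⟨g, hgP⟩ := g
      have hw0 : z * g⁻¹ * z⁻¹ ∈ P := (Subgroup.mem_normalizer_iff.1 hzP _).1 (inv_mem hgP)
      have hwP : g * (z * g⁻¹ * z⁻¹) ∈ P := mul_mem hgP hw0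
      have hvP : (g * (z * g⁻¹ * z⁻¹)) ^ m ∈ P := pow_mem hwP m
      have hzw : z * (g * (z * g⁻¹ * z⁻¹)) * z⁻¹ = (g * (z * g⁻¹ * z⁻¹))⁻¹ := by
        rw [eq_inv_iff_mul_eq_one]
        calc z * (g * (z * g⁻¹ * z⁻¹)) * z⁻¹ * (g * (z * g⁻¹ * z⁻¹))
            = z * g * z * g⁻¹ * (z⁻¹ * z⁻¹) * g * z * g⁻¹ * z⁻¹ := by group
          _ = z * g * (z * z) * g⁻¹ * z⁻¹ := by rw [hzz']; group
          _ = 1 := by rw [hzz]; group
      have hzv : z * (g * (z * g⁻¹ * z⁻¹)) ^ m * z⁻¹ = ((g * (z * g⁻¹ * z⁻¹)) ^ m)⁻¹ := by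
        rw [← conj_pow, hzw, inv_pow]
      have hv2 : (g * (z * g⁻¹ * z⁻¹)) ^ m * (g * (z * g⁻¹ * z⁻¹)) ^ m
          = g * (z * g⁻¹ * z⁻¹) := by
        rw [← pow_two, ← pow_mul, mul_comm, pow_mul]
        exact hm _ hwP
      have hzg : z * g * z⁻¹ = (g * (z * g⁻¹ * z⁻¹))⁻¹ * g := by group
      refine ⟨⟨(g * (z * g⁻¹ * z⁻¹)) ^ m, hvP, hzv⟩, ?_⟩
      show (QuotientGroup.mk (⟨(g * (z * g⁻¹ * z⁻¹)) ^ m, hvP⟩ : ↥P) :
        ↥P ⧸ (P ⊓ Subgroup.centralizer ({z} : Set G)).subgroupOf P) = QuotientGroup.mk ⟨g, hgP⟩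
      rw [QuotientGroup.eq, Subgroup.mem_subgroupOf]
      refine Subgroup.mem_inf.2 ⟨P.mul_mem (P.inv_mem hvP) hgP, ?_⟩
      show ((g * (z * g⁻¹ * z⁻¹)) ^ m)⁻¹ * g ∈ Subgroup.centralizer ({z} : Set G)
      rw [Subgroup.mem_centralizer_iff]
      intro h hh
      rw [Set.mem_singleton_iff.1 hh]
      generalize hv : (g * (z * g⁻¹ * z⁻¹)) ^ m = v at hzv hv2
      generalize hw : g * (z * g⁻¹ * z⁻¹) = w at hv2 hzg
      calc z * (v⁻¹ * g) = (z * v * z⁻¹)⁻¹ * (z * g * z⁻¹) * z := by group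
        _ = v * (w⁻¹ * g) * z := by rw [hzv, hzg, inv_inv]
        _ = v * ((v * v)⁻¹ * g) * z := by rw [hv2]
        _ = v⁻¹ * g * z := by group

/-- Under the `Z*`-statement: a Sylow `p`-subgroup normalized by an isolated involution `z` meets
the centralizer of `z` in a Sylow `p`-subgroup of the centralizer. -/
theorem not_dvd_relIndex_centralizer (hZ : ZStarStmt.{u}) (z : G)
    (hz : Cfsg.IsIsolatedInvolution z) {p : ℕ} [Fact p.Prime] (P : Sylow p G)
    (hzP : z ∈ Subgroup.normalizer ((P : Subgroup G) : Set G)) :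
    ¬ p ∣ ((P : Subgroup G) ⊓ Subgroup.centralizer ({z} : Set G)).relIndex
      (Subgroup.centralizer ({z} : Set G)) := by
  obtain ⟨C, hC⟩ : ∃ C : Subgroup G, C = Subgroup.centralizer ({z} : Set G) := ⟨_, rfl⟩
  rw [← hC]
  have hpg : IsPGroup p ↥(((P : Subgroup G) ⊓ C).subgroupOf C) :=
    (P.isPGroup'.to_le inf_le_left).comap_subtype
  obtain ⟨R0, hR0⟩ := hpg.exists_le_sylow
  have hR1 : IsPGroup p ↥((R0 : Subgroup ↥C).map C.subtype) := R0.isPGroup'.map _
  have hRC : (R0 : Subgroup ↥C).map C.subtype ≤ C := by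
    rintro _ ⟨r, -, rfl⟩
    exact r.2
  have hzR : z ∈ Subgroup.normalizer (((R0 : Subgroup ↥C).map C.subtype : Subgroup G) : Set G) := by
    apply mem_normalizer_of_finite_of_conj_mem
    intro r hr
    have hrC : r ∈ Subgroup.centralizer ({z} : Set G) := by rw [← hC]; exact hRC hr
    have h1 : z * r = r * z := Subgroup.mem_centralizer_iff.1 hrC z rfl
    have h2 : z * r * z⁻¹ = r := by rw [h1]; group
    rw [h2]
    exact hr
  obtain ⟨Q, hRQ, hQmax⟩ := Finite.exists_le_maximal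
    (p := fun R' : Subgroup G => IsPGroup p R' ∧ z ∈ Subgroup.normalizer (R' : Set G))
    ⟨hR1, hzR⟩
  obtain ⟨Q', hQ'⟩ := sylow_of_max_invariant hZ z hz Q hQmax.1.1 hQmax.1.2
    (fun R' h1 h2 h3 => le_antisymm (hQmax.2 ⟨h1, h2⟩ h3) h3)
  obtain ⟨c, hc, hcPQ⟩ := exists_commute_smul_sylow z hz P Q' hzP
    (by rw [hQ']; exact hQmax.1.2)
  have hcC : c ∈ C := by
    rw [hC, Subgroup.mem_centralizer_iff]
    intro h hh
    rw [Set.mem_singleton_iff.1 hh]
    exact (mul_inv_eq_iff_eq_mul.1 hc).symm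
  have hmemC : ∀ r : ↥C, c⁻¹ * (r : G) * c ∈ C := fun r => mul_mem (mul_mem (inv_mem hcC) r.2) hcC
  have hmem : ∀ r : ↥(R0 : Subgroup ↥C), (⟨c⁻¹ * ((r : ↥C) : G) * c, hmemC r⟩ : ↥C)
      ∈ ((P : Subgroup G) ⊓ C).subgroupOf C := by
    intro r
    rw [Subgroup.mem_subgroupOf]
    refine ⟨?_, hmemC r⟩
    show c⁻¹ * ((r : ↥C) : G) * c ∈ (P : Subgroup G)
    rw [← mem_smul_sylow_iff, hcPQ, hQ']
    exact hRQ ⟨r, r.2, rfl⟩
  have hcard : Nat.card (R0 : Subgroup ↥C) ≤ Nat.card ↥(((P : Subgroup G) ⊓ C).subgroupOf C) := by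
    refine Nat.card_le_card_of_injective (fun r => ⟨⟨c⁻¹ * ((r : ↥C) : G) * c, hmemC r⟩, hmem r⟩) ?_
    intro a b hab
    have h1 : c⁻¹ * ((a : ↥C) : G) * c = c⁻¹ * ((b : ↥C) : G) * c :=
      congrArg (fun t : ↥(((P : Subgroup G) ⊓ C).subgroupOf C) => ((t : ↥C) : G)) hab
    exact Subtype.ext (Subtype.ext (mul_left_cancel (mul_right_cancel h1)))
  have heq : ((P : Subgroup G) ⊓ C).subgroupOf C = R0 := Subgroup.eq_of_le_of_card_ge hR0 hcard
  show ¬ p ∣ (((P : Subgroup G) ⊓ C).subgroupOf C).index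
  rw [heq]
  exact R0.not_dvd_index

end zcor

end Cfsg.Agent.Lib.Helper84
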